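import Cfsg.Agent.Loc.B24p13q0
import Cfsg.Agent.Loc.B24p13q1
import Cfsg.Agent.Loc.B24p13q2
set_option autoImplicit false
set_option maxRecDepth 1000000
set_option Elab.async false
namespace CA.Loc.B24p13
open CA.TC
theorem q : ∀ q < 306936, (fB1 yf rk (PB X24 x L ts L0)) q = true :=
  all_step (all_step (all_step (all_step (all_step (all_step (all_step (all_step (all_step (all_step (all_step (all_step (all_zero _) q_0) q_1) q_2) q_3) q_4) q_5) q_6) q_7) q_8) q_9) q_10) q_11
theorem ps : ∀ q < 306936, fB X24 y rk (PB X24 x L ts L0) q = true := fB_of_fB1 hyf q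
theorem hb : bOK X24 x y 78 6635 L ts lk fin = true := by decide +kernel
theorem hf : frOK X24 x t 13 6 4 = true := by decide +kernel
theorem ht : fixL X24 t L = true := by decide +kernel
def u0 : Ex := .t []
theorem hu0 : band (eqE X24 (.mul u0 x) (.mul (.pow x 1) u0)) (allL [(3,3)] fun q => Nat.beq (u0.act X24 false q.1) q.2) = true := by decide +kernel
def u1 : Ex := .t [697]
theorem hu1 : band (eqE X24 (.mul u1 x) (.mul (.pow x 1) u1)) (allL [(3,696)] fun q => Nat.beq (u1.act X24 false q.1) q.2) = true := by decide +kernel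
def u2 : Ex := .t [696]
theorem hu2 : band (eqE X24 (.mul u2 x) (.mul (.pow x 1) u2)) (allL [(3,697)] fun q => Nat.beq (u2.act X24 false q.1) q.2) = true := by decide +kernel
def u3 : Ex := .t [57995,24600,61181,31870,31682,6,33239,31708,3869]
theorem hu3 : band (eqE X24 (.mul u3 x) (.mul (.pow x 2) u3)) (allL [(3,33657)] fun q => Nat.beq (u3.act X24 false q.1) q.2) = true := by decide +kernel
def u4 : Ex := .t [44193,156026,113079,73566,35996,69042,4675,79575]
theorem hu4 : band (eqE X24 (.mul u4 x) (.mul (.pow x 2) u4)) (allL [(3,158297)] fun q => Nat.beq (u4.act X24 false q.1) q.2) = true := by decide +kernel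
def u5 : Ex := .t [54912,188405,119892,37193,39462,123,33237,31719,31674]
theorem hu5 : band (eqE X24 (.mul u5 x) (.mul (.pow x 2) u5)) (allL [(3,196739)] fun q => Nat.beq (u5.act X24 false q.1) q.2) = true := by decide +kernel
end CA.Loc.B24p13
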