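import Cfsg.Agent.Loc.B24p13d
set_option autoImplicit false
set_option maxRecDepth 1000000
set_option Elab.async false
namespace CA.Loc.B24p13
open CA.TC
theorem q_0 : rng (fB1 yf rk (PB X24 x L ts L0)) 0 25600 9 = true := by decide +kernel
theorem q_1 : rng (fB1 yf rk (PB X24 x L ts L0)) 25600 51200 9 = true := by decide +kernel
theorem q_2 : rng (fB1 yf rk (PB X24 x L ts L0)) 51200 76800 9 = true := by decide +kernel
theorem q_3 : rng (fB1 yf rk (PB X24 x L ts L0)) 76800 102400 9 = true := by decide +kernel
end CA.Loc.B24p13
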