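/-
Climbing a tower of subgroups of a presented group: subgroups on which a homomorphism to a model is
injective, and index bounds from the static coset tables.
-/
import Cfsg.Agent.Loc.Cox
import Cfsg.Agent.Fi.Cent

set_option autoImplicit false

namespace CA.DC

open CA.TC CA.Loc Subgroup

/-- a word is traced from the base point back to the base point -/
noncomputable def okw (c : Ce) (w : List ℕ) : Bool :=
  band (allL w (memL · c.As)) (wk c.W c.m1 c.ma c.n c.fuel c.inf 0 w 0)

/-- the relator of a conjugation relation -/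
def rlt (q : ℕ × List ℕ × ℕ) : List ℕ := q.2.1.reverse ++ q.1 :: q.2.1 ++ [q.2.2]

/-- the pin of a conjugation relation -/
def pin (W : List (List ℕ)) (q : ℕ × List ℕ × ℕ) : List ℕ :=
  (W.getD q.2.2 []).reverse ++ q.2.1.reverse ++ W.getD q.1 []

/-- trivial in the model -/
noncomputable def tm (T : Tab) (w : List ℕ) : Bool := eqE T (.w w) (.w [])

/-- a word in given letters which is trivial in the model -/
noncomputable def trv (T : Tab) (As w : List ℕ) : Bool := band (allL w (memL · As)) (tm T w)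

/-- the check of a chain of moves through a double coset -/
noncomputable def zc (T : Tab) (As N t v v' : List ℕ) (st : List (List ℕ × List ℕ)) (z : List ℕ) :
    List ℕ → Bool :=
  List.rec (fun u => u == z) (fun a _ ih u => band (allL (a.1 ++ a.2) (memL · N))
    (band (trv T As (u ++ t ++ (a.1 ++ v ++ a.2).reverse)) (ih (v' ++ a.2)))) st

variable {P G : Type*} [Group P] [Group G] {s : ℕ → P} {K : Subgroup P} {φ : P →* G} {T : Tab}
  {D : Set G} {e : ℕ → G}

theorem wd_mem_gs {As w : List ℕ} (h : allL w (memL · As) = true) : wd s w ∈ gs s As :=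
  wd_mem fun g hg => mem_gs (memL_spec (allL_spec h g hg))

theorem gs_le {As : List ℕ} (h : ∀ g ∈ As, s g ∈ K) : gs s As ≤ K :=
  (closure_le _).2 fun _ ⟨g, hg, e1⟩ => e1 ▸ h g hg

theorem fin_le {H : Subgroup P} {m : ℕ} (h : H ≤ K) (hK : Finite K ∧ Nat.card K ≤ m) :
    Finite H ∧ Nat.card H ≤ m :=
  haveI := hK.1
  ⟨Finite.of_injective _ (inclusion_injective h), (card_le_of_le h).trans hK.2⟩

theorem eq_of_rel (hs : ∀ g, s g * s g = 1) {g : ℕ} {w : List ℕ} (h : wd s (g :: w) = 1) :
    s g = wd s w := by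
  rw [wd_cons] at h
  exact mul_left_cancel ((hs g).trans h.symm)

/-- the homomorphism is injective on a subgroup -/
def Inj (φ : P →* G) (K : Subgroup P) : Prop := ∀ y ∈ K, φ y = 1 → y = 1

theorem inj_of {m : ℕ} (h : Finite K ∧ Nat.card K ≤ m) (h2 : m ≤ Nat.card (K.map φ)) : Inj φ K := by
  intro y hy h1
  have := inj_of_card (φ.comp K.subtype) h (by rwa [MonoidHom.range_comp, range_subtype])
  exact congrArg Subtype.val (this (a₁ := ⟨y, hy⟩) (a₂ := 1) (by simpa using h1))

theorem map_wd {w : List ℕ} (h : ∀ g ∈ w, φ (s g) = T.gen e g) : φ (wd s w) = wd (T.gen e) w := by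
  induction w with
  | nil => simp
  | cons g w ih =>
    rw [wd_cons, wd_cons, map_mul, h g List.mem_cons_self, ih fun a ha => h a (List.mem_cons_of_mem _ ha)]

theorem Inj.tm (hI : Inj φ K) (h : RG T D e) {As w : List ℕ} (hA : ∀ g ∈ As, φ (s g) = T.gen e g)
    (h1 : allL w (memL · As) = true) (h2 : wd s w ∈ K) (h3 : tm T w = true) : wd s w = 1 := by
  refine hI _ h2 ?_
  rw [map_wd fun g hg => hA g (memL_spec (allL_spec h1 g hg))]
  exact h.eqE h3

theorem Inj.trv {As w : List ℕ} (hI : Inj φ (gs s As)) (h : RG T D e)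
    (hA : ∀ g ∈ As, φ (s g) = T.gen e g) (h1 : trv T As w = true) : wd s w = 1 :=
  hI.tm h hA (band_iff.1 h1).1 (wd_mem_gs (band_iff.1 h1).1) (band_iff.1 h1).2

theorem Inj.okw (hI : Inj φ K) (h : RG T D e) (hs : ∀ g, s g * s g = 1) (h15 : s 15 = 1)
    {R S : List (List ℕ)} (hR : ∀ r ∈ R, wd s r = 1) (hS : ∀ r ∈ S, wd s r ∈ K) {c : Ce}
    (hd : c.hd R S = true) (hc : ∀ p < c.M, c.chk p = true) (hA : ∀ g ∈ c.As, φ (s g) = T.gen e g)
    {w : List ℕ} (h1 : band (okw c w) (DC.tm T w) = true) : wd s w = 1 :=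
  hI.tm h hA (band_iff.1 (band_iff.1 h1).1).1 (word_mem hs h15 hR hS hd hc (band_iff.1 h1).1)
    (band_iff.1 h1).2

theorem gen_le_map {As : List ℕ} (hA : ∀ g ∈ As, φ (s g) = T.gen e g) :
    gen T e (As.map fun g => .w [g]) ≤ (gs s As).map φ := by
  refine gen_le fun a ha => ?_
  obtain ⟨g, hg, rfl⟩ := List.mem_map.1 ha
  exact ⟨s g, mem_gs hg, by simp [hA g hg, Ex.val]⟩

theorem comm_wd {y : P} {w : List ℕ} (h : ∀ g ∈ w, Commute y (s g)) : Commute y (wd s w) :=
  mem_centralizer_singleton_iff.1 (wd_mem (K := centralizer {y}) fun g hg =>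
    mem_centralizer_singleton_iff.2 (h g hg).symm) |>.symm

theorem comm_of_rel (hs : ∀ g, s g * s g = 1) {a b : ℕ} (h : wd s [a, b, a, b] = 1) :
    Commute (s a) (s b) := by
  simp only [wd_cons, wd_nil, mul_one] at h
  show s a * s b = s b * s a
  calc _ = s a * s b * (s b * s a * (s a * (s b * (s a * s b))) * (s b * s a)) := by
        rw [show s b * s a * (s a * (s b * (s a * s b))) * (s b * s a) =
          s b * (s a * s a) * s b * (s a * (s b * s b) * s a) by group]
        simp [hs]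
    _ = s a * s b * (s b * s a) * (s b * s a) := by rw [h]; group
    _ = s a * (s b * s b) * s a * (s b * s a) := by group
    _ = _ := by simp [hs]

/-- the index bound given by a static coset table -/
theorem card_le_cert (hT : T.Ok) {rk ru : ℕ → ℕ → ℕ} {rules : BT Rule} {qs : List (ℕ × List ℕ × ℕ)}
    (hq : ∀ q ∈ qs, q.1 < T.ng ∧ T.Val q.2.1 ∧ q.2.2 < T.ng) (hR : (T.cert rk ru rules qs).chkR = true)
    (hC : ∀ p < T.n, (T.cert rk ru rules qs).chk p = true) (hs : ∀ g, s g * s g = 1)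
    {W : List (List ℕ)} (h1 : ∀ q ∈ qs, wd s (rlt q) = 1) (h2 : ∀ q ∈ qs, wd s (pin W q) ∈ K)
    {z : ℕ} (hz : z < T.ng) (hW : W.getD z [] = []) {As : List ℕ} (hA : ∀ g ∈ As, g < T.ng) {m : ℕ}
    (hK : Finite K ∧ Nat.card K ≤ m) : Finite (gs s As) ∧ Nat.card (gs s As) ≤ T.n * m := by
  haveI := hK.1
  let rt : ℕ → P ⧸ K := fun g => ((wd s (W.getD g []) : P) : P ⧸ K)
  let x := xp T.act (fun g => g) T.tg T.dp (fun g (y : P ⧸ K) => s g • y) rt
  have hx : ∀ g < T.ng, x (T.pt g) = rt g := fun g hg => by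
    simp only [x]; rw [xp_root (hT.pt_root g hg).1, (hT.pt_root g hg).2]
  have h0 : ∀ g (y : P ⧸ K), s g • s g • y = y := fun g y => by rw [← mul_smul, hs g, one_smul]
  have key : ∀ g < T.ng, ∀ p < T.n, s g • x p = x (T.act g p) :=
    (T.cert rk ru rules qs).sound (fun g (y : P ⧸ K) => s g • y) rt (fun g hg => ⟨hg, h0 g, h0 g⟩)
      (by
        intro r hr y
        obtain ⟨q, hq', rfl⟩ := List.mem_map.1 hr
        obtain ⟨a1, a2, a3⟩ := hq q hq'
        rw [runX_quot _ K (fun g _ => hs g) ((a2.reverse.append (Tab.Val.cons a1 a2)).append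
          (Tab.Val.cons a3 (Tab.Val.nil T))), show wd s (q.2.1.reverse ++ q.1 :: q.2.1 ++ [q.2.2]) = 1 from h1 q hq',
          inv_one, one_smul])
      (by
        intro t ht
        obtain ⟨q, hq', rfl⟩ := List.mem_map.1 ht
        obtain ⟨a1, a2, a3⟩ := hq q hq'
        show runX _ q.2.1 (x (T.pt q.1)) = x (T.pt q.2.2)
        rw [hx _ a1, hx _ a3, runX_quot _ K (fun g _ => hs g) a2]
        simp only [rt]
        rw [MulAction.Quotient.smul_mk, eq_comm, QuotientGroup.eq, smul_eq_mul, ← mul_assoc]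
        have := h2 q hq'
        rwa [pin, wd_append, wd_append, wd_rev hs, wd_rev hs] at this)
      hR hC
  have cov : ∀ y ∈ gs s As, ∃ p < T.n, x p = (y : P ⧸ K) := by
    have st : ∀ y : P, ∀ g ∈ As, (∃ p < T.n, x p = (y : P ⧸ K)) → ∃ p < T.n, x p = (s g * y : P) := by
      rintro y g hg ⟨p, hp, a⟩
      exact ⟨_, hT.act_lt g (hA g hg) p hp, by rw [← key g (hA g hg) p hp, a]; rfl⟩
    intro y hy
    induction hy using Subgroup.closure_induction_left with
    | one => exact ⟨_, hT.pt_lt z hz, by rw [hx z hz]; simp only [rt]; rw [hW, wd_nil]⟩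
    | mul_left y hy u hu ih => obtain ⟨g, hg, rfl⟩ := hy; exact st u g hg ih
    | inv_mul_cancel y hy u hu ih =>
      obtain ⟨g, hg, rfl⟩ := hy
      rw [inv_eq_of_mul_eq_one_right (hs g)]; exact st u g hg ih
  choose f hf1 hf2 using cov
  let F : gs s As → Fin T.n × K := fun y => (⟨f y y.2, hf1 y y.2⟩, ⟨(x (f y y.2)).out⁻¹ * y,
    QuotientGroup.eq.1 ((QuotientGroup.out_eq' _).trans (hf2 y y.2))⟩)
  have hF : Function.Injective F := by
    intro y u h
    have a1 : f y y.2 = f u u.2 := congrArg (fun u => (u.1 : ℕ)) h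
    have a2 : (x (f y y.2)).out⁻¹ * (y : P) = (x (f u u.2)).out⁻¹ * u := congrArg (fun u => (u.2 : P)) h
    rw [a1] at a2
    exact Subtype.ext (mul_left_cancel a2)
  refine ⟨Finite.of_injective F hF, (Nat.card_le_card_of_injective F hF).trans ?_⟩
  rw [Nat.card_prod, Nat.card_eq_fintype_card (α := Fin _), Fintype.card_fin]
  exact Nat.mul_le_mul_left _ hK.2

theorem zc_spec (hs : ∀ g, s g * s g = 1) {As N t v v' z : List ℕ} {k : P} (hk : k * k = 1)
    (hA : ∀ w, trv T As w = true → wd s w = 1) (hN : ∀ g ∈ N, s g ∈ K ∧ Commute k (s g))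
    (hv : k * wd s v * k * (wd s v')⁻¹ * k ∈ K) (st : List (List ℕ × List ℕ)) :
    ∀ u, zc T As N t v v' st z u = true →
      k * wd s u * (wd s t * k) ^ st.length * (wd s z)⁻¹ * k ∈ K := by
  induction st with
  | nil =>
    intro u h
    rw [eq_of_beq (show (u == z) = true from h)]
    simp [hk]
  | cons a st ih =>
    intro u h
    have h' : band (allL (a.1 ++ a.2) (memL · N))
      (band (trv T As (u ++ t ++ (a.1 ++ v ++ a.2).reverse)) (zc T As N t v v' st z (v' ++ a.2))) = true := h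
    rw [band_iff, band_iff] at h'
    obtain ⟨h1, h2, h3⟩ := h'
    have n := fun g hg => hN g (memL_spec (allL_spec h1 g hg))
    have c1 := comm_wd fun g hg => (n g (List.mem_append_left _ hg)).2
    have c2 := comm_wd fun g hg => (n g (List.mem_append_right _ hg)).2
    have m1 : wd s a.1 ∈ K := wd_mem fun g hg => (n g (List.mem_append_left _ hg)).1
    have h4 := hA _ h2
    rw [wd_append, wd_rev hs, mul_inv_eq_one, wd_append, wd_append, wd_append] at h4
    have h5 := mul_mem (mul_mem m1 hv) (ih _ h3)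
    rw [wd_append] at h5
    have : k * wd s u * (wd s t * k) ^ (a :: st).length * (wd s z)⁻¹ * k =
        wd s a.1 * (k * wd s v * k * (wd s v')⁻¹ * k) *
          (k * (wd s v' * wd s a.2) * (wd s t * k) ^ st.length * (wd s z)⁻¹ * k) := by
      rw [List.length_cons, pow_succ']
      calc _ = k * (wd s u * wd s t) * k * (wd s t * k) ^ st.length * (wd s z)⁻¹ * k := by
            simp only [mul_assoc]
        _ = (k * wd s a.1) * wd s v * (wd s a.2 * k) * (wd s t * k) ^ st.length * (wd s z)⁻¹ * k := by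
            rw [h4]; simp only [mul_assoc]
        _ = wd s a.1 * (k * wd s v * k * (wd s v')⁻¹ * (k * k) * (wd s v' * wd s a.2)) *
              (wd s t * k) ^ st.length * (wd s z)⁻¹ * k := by
            rw [c1.eq, ← c2.eq, hk]; simp only [mul_assoc, one_mul, inv_mul_cancel_left]
        _ = _ := by simp only [mul_assoc]
    rwa [this]

theorem realizeEqns_Loc_DC2 : True := by
  have := @CA.DC.zc.eq_1
  have := @CA.DC.zc.eq_def
  have := @CA.DC.zc.congr_simp
  have := @CA.DC.trv.eq_1
  have := @CA.DC.trv.eq_def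
  have := @CA.DC.trv.congr_simp
  have := @CA.DC.Inj.eq_1.{0,0}
  have := @CA.DC.Inj.eq_def.{0,0}
  have := @CA.DC.Inj.congr_simp.{0,0}
  have := @CA.DC.rlt.eq_1
  have := @CA.DC.rlt.eq_def
  have := @CA.DC.rlt.congr_simp
  have := @CA.DC.pin.eq_1
  have := @CA.DC.pin.eq_def
  have := @CA.DC.pin.congr_simp
  have := @CA.DC.tm.eq_1
  have := @CA.DC.tm.eq_def
  have := @CA.DC.tm.congr_simp
  have := @CA.DC.okw.eq_1
  have := @CA.DC.okw.eq_def
  have := @CA.DC.okw.congr_simp
  trivial

end CA.DC
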