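import Cfsg.Agent.Loc.F24c
set_option autoImplicit false
set_option maxRecDepth 1000000
set_option Elab.async false
namespace CA.DC.F24
open CA.TC CA.Loc
theorem l2_0 : rng l2.chk 0 2048 5 = true := by decide +kernel
theorem l2_1 : rng l2.chk 2048 4096 5 = true := by decide +kernel
theorem l2_2 : rng l2.chk 4096 6144 5 = true := by decide +kernel
theorem l2_3 : rng l2.chk 6144 8192 5 = true := by decide +kernel
theorem l2_4 : rng l2.chk 8192 10240 5 = true := by decide +kernel
end CA.DC.F24
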