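import Cfsg.Agent.Loc.F24c
set_option autoImplicit false
set_option maxRecDepth 1000000
set_option Elab.async false
namespace CA.DC.F24
open CA.TC CA.Loc
theorem l2_5 : rng l2.chk 10240 12288 5 = true := by decide +kernel
theorem l2_6 : rng l2.chk 12288 14336 5 = true := by decide +kernel
theorem l2_7 : rng l2.chk 14336 16384 5 = true := by decide +kernel
theorem l2_8 : rng l2.chk 16384 18432 5 = true := by decide +kernel
theorem l2_9 : rng l2.chk 18432 20480 5 = true := by decide +kernel
end CA.DC.F24
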