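import Cfsg.Agent.Loc.F24c
set_option autoImplicit false
set_option maxRecDepth 1000000
set_option Elab.async false
namespace CA.DC.F24
open CA.TC CA.Loc
theorem l2_10 : rng l2.chk 20480 22528 5 = true := by decide +kernel
theorem l2_11 : rng l2.chk 22528 24576 5 = true := by decide +kernel
theorem l2_12 : rng l2.chk 24576 26624 5 = true := by decide +kernel
theorem l2_13 : rng l2.chk 26624 28672 5 = true := by decide +kernel
theorem l2_14 : rng l2.chk 28672 29198 4 = true := by decide +kernel
end CA.DC.F24
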