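import Cfsg.Agent.Loc.F24c0
import Cfsg.Agent.Loc.F24c1
import Cfsg.Agent.Loc.F24c2
set_option autoImplicit false
set_option maxRecDepth 1000000
set_option Elab.async false
namespace CA.DC.F24
open CA.TC CA.Loc
theorem l2_all : ∀ q < 29198, l2.chk q = true :=
  all_step (all_step (all_step (all_step (all_step (all_step (all_step (all_step (all_step (all_step (all_step (all_step (all_step (all_step (all_step (all_zero _) l2_0) l2_1) l2_2) l2_3) l2_4) l2_5) l2_6) l2_7) l2_8) l2_9) l2_10) l2_11) l2_12) l2_13) l2_14
end CA.DC.F24
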