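/-
Kernel verification of relations between sparse matrices over `ZMod p` (rows are packed into
natural numbers).
-/
import Cfsg.Agent.Loc.Cox

set_option autoImplicit false

namespace CA.Mat

open CA.TC CA.Loc CA.DC

/-- a linear combination of rows -/
noncomputable def dot (L : BT ℕ) (r : List (ℕ × ℕ)) : ℕ :=
  List.rec 0 (fun a _ ih => Nat.add (Nat.mul a.2 (L.sel a.1)) ih) r

/-- map on trees -/
noncomputable def mapT {α β : Type} (f : α → β) (t : BT α) : BT β :=
  BT.rec (fun a => .leaf (f a)) (fun _ _ l r => .node l r) t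

/-- multiplication by a sparse matrix -/
noncomputable def app (S : BT (List (ℕ × ℕ))) (L : BT ℕ) : (BT ℕ → Bool) → Bool :=
  BT.rec (fun r k => frc (dot L r) fun y => k (.leaf y))
    (fun _ _ l r k => l fun a => r fun b => k (.node a b)) S

/-- multiplication by a word -/
noncomputable def run (Ms : ℕ → BT (List (ℕ × ℕ))) (L0 : BT ℕ) (w : List ℕ) :
    (BT ℕ → Bool) → Bool :=
  List.rec (fun k => k L0) (fun g _ ih k => ih fun L => app (Ms g) L k) w

/-- the digits of `R` are those of the `i`-th unit vector modulo `p` -/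
noncomputable def chkRow (B mask p i : ℕ) (m : ℕ) : ℕ → ℕ → Bool :=
  Nat.rec (fun _ _ => true) (fun _ ih R j =>
    band (Nat.beq (Nat.mod (Nat.land R mask) p) (Bool.rec 0 1 (Nat.beq i j)))
      (frc (Nat.shiftRight R B) fun R' => frc (Nat.succ j) (ih R'))) m

/-- the product of a word is the identity; `I` is a tree with `I.sel i = i` -/
noncomputable def chkW (n p c : ℕ) (I : BT ℕ) (Ms : ℕ → BT (List (ℕ × ℕ))) (w : List ℕ) : Bool :=
  frc (Nat.succ (Nat.mul c w.length)) fun B => frc (Nat.pred (Nat.shiftLeft 1 B)) fun mask =>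
    app (mapT (fun i => [(0, Nat.shiftLeft 1 (Nat.mul B i))]) I) (.leaf 1) fun L0 =>
      run Ms L0 w fun L => allLt n fun i => chkRow B mask p i n (L.sel i) 0

/-- shape of a sparse matrix -/
noncomputable def okS (n c : ℕ) (S : BT (List (ℕ × ℕ))) : Bool :=
  allT (fun r => band (allL r fun a => blt a.1 n) (Nat.ble (r.map Prod.snd).sum (Nat.shiftLeft 1 c))) S

/-- the matrix -/
noncomputable def mat (n p : ℕ) (S : BT (List (ℕ × ℕ))) : Matrix (Fin n) (Fin n) (ZMod p) :=
  fun i j => (((S.sel i).map fun a => if a.1 = j.1 then a.2 else 0).sum : ℕ)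

/-- packing -/
def pk (B : ℕ) (v : ℕ → ℕ) : ℕ → ℕ → ℕ
  | 0, _ => 0
  | m + 1, j => v j + 2 ^ B * pk B v m (j + 1)

/-- the product over the natural numbers -/
noncomputable def prd (Ms : ℕ → BT (List (ℕ × ℕ))) : List ℕ → ℕ → ℕ → ℕ
  | [], i, j => if i = j then 1 else 0
  | g :: w, i, j => (((Ms g).sel i).map fun a => a.2 * prd Ms w a.1 j).sum

theorem app_eq (S : BT (List (ℕ × ℕ))) (L : BT ℕ) (k : BT ℕ → Bool) :
    app S L k = k (mapT (dot L) S) := by
  induction S generalizing k with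
  | leaf r => exact frc_eq (dot L r) fun y => k (.leaf y)
  | node l r ihl ihr =>
    show app l L (fun a => app r L fun b => k (.node a b)) = _
    rw [ihl, ihr]; rfl

theorem sel_map {α β : Type} (f : α → β) (t : BT α) (i : ℕ) : (mapT f t).sel i = f (t.sel i) := by
  induction t generalizing i with
  | leaf a => rfl
  | node l r ihl ihr =>
    show Nat.rec ((mapT f l).sel _) (fun _ _ => (mapT f r).sel _) (Nat.land i (nat_lit 1)) =
      f (Nat.rec (l.sel _) (fun _ _ => r.sel _) (Nat.land i (nat_lit 1)))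
    cases Nat.land i (nat_lit 1)
    · exact ihl _
    · exact ihr _

theorem pk_comb (B : ℕ) (a : ℕ) (u v : ℕ → ℕ) (m : ℕ) : ∀ j,
    pk B (fun t => a * u t + v t) m j = a * pk B u m j + pk B v m j := by
  induction m with
  | zero => intro j; simp [pk]
  | succ m ih => intro j; simp only [pk, ih]; ring

theorem pk_zero (B m : ℕ) : ∀ j, pk B (fun _ => 0) m j = 0 := by
  induction m with
  | zero => intro j; rfl
  | succ m ih => intro j; simp [pk, ih]

theorem pk_unit (B i m : ℕ) : ∀ j, pk B (fun t => if i = t then 1 else 0) m j =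
    if j ≤ i ∧ i < j + m then 2 ^ (B * (i - j)) else 0 := by
  induction m with
  | zero => intro j; rw [pk, if_neg (by omega)]
  | succ m ih =>
    intro j
    rw [pk, ih]
    by_cases h1 : i = j
    · subst h1; simp
    · by_cases h2 : j + 1 ≤ i ∧ i < j + 1 + m
      · rw [if_neg h1, if_pos h2, if_pos (by omega), zero_add, ← pow_add]
        congr 1
        obtain ⟨k, rfl⟩ : ∃ k, i = j + 1 + k := ⟨i - (j + 1), by omega⟩
        rw [show j + 1 + k - (j + 1) = k by omega, show j + 1 + k - j = k + 1 by omega]; ring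
      · rw [if_neg h1, if_neg h2, if_neg (by omega)]; simp

theorem okS_spec {n c : ℕ} {S : BT (List (ℕ × ℕ))} (h : okS n c S = true) (i : ℕ) :
    (∀ a ∈ S.sel i, a.1 < n) ∧ ((S.sel i).map Prod.snd).sum ≤ 2 ^ c := by
  obtain ⟨h1, h2⟩ := band_iff.1 (allT_sel h i)
  refine ⟨fun a ha => blt_iff.1 (allL_spec h1 a ha), (ble_iff.1 h2).trans_eq ?_⟩
  show 1 <<< c = _
  rw [Nat.one_shiftLeft]

theorem dot_pk {B n : ℕ} {L : BT ℕ} {X : ℕ → ℕ → ℕ} (h : ∀ i < n, L.sel i = pk B (X i) n 0)
    (r : List (ℕ × ℕ)) (hr : ∀ a ∈ r, a.1 < n) :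
    dot L r = pk B (fun j => (r.map fun a => a.2 * X a.1 j).sum) n 0 := by
  induction r with
  | nil => exact (pk_zero B n 0).symm
  | cons a r ih =>
    show a.2 * L.sel a.1 + dot L r = _
    simp only [List.map_cons, List.sum_cons]
    rw [pk_comb, ih fun b hb => hr b (List.mem_cons_of_mem _ hb), h _ (hr a List.mem_cons_self)]

theorem run_eq {B n c : ℕ} {Ms : ℕ → BT (List (ℕ × ℕ))} (h : ∀ g, okS n c (Ms g) = true) {L0 : BT ℕ}
    (h0 : ∀ i < n, L0.sel i = pk B (prd Ms [] i) n 0) (w : List ℕ) :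
    ∃ L : BT ℕ, (∀ i < n, L.sel i = pk B (prd Ms w i) n 0) ∧ ∀ k, run Ms L0 w k = k L := by
  induction w with
  | nil => exact ⟨L0, h0, fun _ => rfl⟩
  | cons g w ih =>
    obtain ⟨L, h1, h2⟩ := ih
    refine ⟨mapT (dot L) (Ms g), fun i _ => ?_, fun k => ?_⟩
    · rw [sel_map, dot_pk h1 _ (okS_spec (h g) i).1]; rfl
    · show run Ms L0 w (fun L => app (Ms g) L k) = _
      rw [h2, app_eq]

theorem chkRow_spec {B p i : ℕ} {v : ℕ → ℕ} (hv : ∀ j, v j < 2 ^ B) (m : ℕ) : ∀ j,
    chkRow B (2 ^ B - 1) p i m (pk B v m j) j = true →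
      ∀ t, j ≤ t → t < j + m → v t % p = if i = t then 1 else 0 := by
  induction m with
  | zero => intro j _ t h1 h2; omega
  | succ m ih =>
    intro j h t h1 h2
    have h' : band (Nat.beq ((pk B v (m + 1) j &&& (2 ^ B - 1)) % p) (Bool.rec 0 1 (Nat.beq i j)))
      (frc (pk B v (m + 1) j >>> B) fun R' => frc (j + 1) (chkRow B (2 ^ B - 1) p i m R')) = true := h
    rw [band_iff, beq_iff, frc_eq, frc_eq, Nat.and_two_pow_sub_one_eq_mod, Nat.shiftRight_eq_div_pow, pk,
      Nat.add_mul_mod_self_left, Nat.mod_eq_of_lt (hv j), Nat.add_mul_div_left _ _ (Nat.two_pow_pos B),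
      Nat.div_eq_of_lt (hv j), zero_add] at h'
    by_cases ht : t = j
    · rw [ht, h'.1]
      by_cases hij : i = j
      · rw [if_pos hij, beq_iff.2 hij]
      · rw [if_neg hij]
        cases hb : Nat.beq i j
        · rfl
        · exact absurd (beq_iff.1 hb) hij
    · exact ih _ h'.2 t (by omega) (by omega)

theorem prd_le {n c : ℕ} {Ms : ℕ → BT (List (ℕ × ℕ))} (h : ∀ g, okS n c (Ms g) = true) (w : List ℕ) :
    ∀ i j, prd Ms w i j ≤ 2 ^ (c * w.length) := by
  induction w with
  | nil => intro i j; rw [prd]; split_ifs <;> simp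
  | cons g w ih =>
    intro i j
    rw [prd, List.length_cons, mul_add, mul_one, pow_add]
    refine le_trans ?_ (Nat.mul_le_mul_left _ (okS_spec (h g) i).2)
    generalize (Ms g).sel i = r
    induction r with
    | nil => simp
    | cons a r ihr =>
      simp only [List.map_cons, List.sum_cons, mul_add]
      exact Nat.add_le_add (by rw [mul_comm]; exact Nat.mul_le_mul_right _ (ih _ _)) ihr

theorem prd_cast {n p c : ℕ} {Ms : ℕ → BT (List (ℕ × ℕ))} (h : ∀ g, okS n c (Ms g) = true)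
    (w : List ℕ) : ∀ i j : Fin n, (prd Ms w i j : ZMod p) = (w.map fun g => mat n p (Ms g)).prod i j := by
  induction w with
  | nil => intro i j; simp [prd, Matrix.one_apply, Fin.ext_iff]
  | cons g w ih =>
    intro i j
    rw [prd, List.map_cons, List.prod_cons, Matrix.mul_apply]
    have h1 := (okS_spec (h g) i).1
    generalize (w.map fun g => mat n p (Ms g)).prod = Y at ih ⊢
    unfold mat
    generalize (Ms g).sel i = r at h1
    induction r with
    | nil => simp
    | cons a r ihr =>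
      have ha := h1 a List.mem_cons_self
      simp only [List.map_cons, List.sum_cons, Nat.cast_add, add_mul, Finset.sum_add_distrib]
      rw [ihr fun b hb => h1 b (List.mem_cons_of_mem _ hb), Nat.cast_mul, ih ⟨a.1, ha⟩ j]
      congr 1
      rw [Finset.sum_eq_single ⟨a.1, ha⟩]
      · simp
      · intro b _ hb
        rw [if_neg fun e => hb (Fin.ext e.symm)]; simp
      · simp

theorem chkW_spec {n p c : ℕ} {I : BT ℕ} (hI : ∀ i < n, I.sel i = i) {Ms : ℕ → BT (List (ℕ × ℕ))}
    (h : ∀ g, okS n c (Ms g) = true) {w : List ℕ} (hc : chkW n p c I Ms w = true) :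
    (w.map fun g => mat n p (Ms g)).prod = 1 := by
  unfold chkW at hc
  rw [frc_eq, frc_eq, app_eq] at hc
  generalize hB : Nat.succ (Nat.mul c w.length) = B at hc
  have hm : Nat.pred (Nat.shiftLeft 1 B) = 2 ^ B - 1 := by
    show 1 <<< B - 1 = _
    rw [Nat.one_shiftLeft]
  obtain ⟨L, h1, h2⟩ := run_eq (B := B) h (L0 := mapT (dot (.leaf 1)) (mapT (fun i =>
      [(0, Nat.shiftLeft 1 (Nat.mul B i))]) I)) (fun i hi => by
    rw [sel_map, sel_map, hI i hi]
    show _ = pk B (fun t => if i = t then 1 else 0) n 0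
    rw [pk_unit, if_pos (by omega)]
    show 1 <<< (B * i) * 1 + 0 = _
    simp [Nat.one_shiftLeft]) w
  rw [h2, hm] at hc
  ext i j
  have h3 := allLt_spec hc i i.2
  rw [h1 _ i.2] at h3
  have h4 := chkRow_spec (fun t => (prd_le h w i t).trans_lt
    (Nat.pow_lt_pow_right (by norm_num) (by rw [← hB]; exact Nat.lt_succ_self _))) n 0 h3 j
    (Nat.zero_le _) (by simp)
  rw [← prd_cast h, ← ZMod.natCast_mod, h4, Matrix.one_apply]
  simp [Fin.ext_iff]

/-- the invertible matrices attached to involutions -/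
def un {n p : ℕ} (A : ℕ → Matrix (Fin n) (Fin n) (ZMod p)) (h : ∀ g, A g * A g = 1) (g : ℕ) :
    GL (Fin n) (ZMod p) := ⟨A g, A g, h g, h g⟩

theorem un_sq {n p : ℕ} {A : ℕ → Matrix (Fin n) (Fin n) (ZMod p)} (h : ∀ g, A g * A g = 1) (g : ℕ) :
    un A h g * un A h g = 1 := Units.ext (h g)

theorem un_ne {n p : ℕ} {A : ℕ → Matrix (Fin n) (Fin n) (ZMod p)} (h : ∀ g, A g * A g = 1) {g : ℕ}
    (i : Fin n) (hg : un A h g = 1) : A g i i = 1 :=
  (congrArg (fun u : GL (Fin n) (ZMod p) => u.1 i i) hg).trans (Matrix.one_apply_eq i)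

theorem wd_un {n p : ℕ} {A : ℕ → Matrix (Fin n) (Fin n) (ZMod p)} (h : ∀ g, A g * A g = 1)
    {w : List ℕ} (hw : (w.map A).prod = 1) : wd (un A h) w = 1 := by
  apply Units.ext
  rw [Units.val_one, ← hw]
  clear hw
  induction w with
  | nil => rfl
  | cons g w ih => rw [wd_cons, Units.val_mul, ih, List.map_cons, List.prod_cons]; rfl

/-- homomorphisms from relations between words -/
theorem exists_hom_wd {α : Type} [DecidableEq α] {edges : List (α × ℕ × α)} {extra : List (FreeGroup α)}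
    {H : Type*} [Group H] {s : ℕ → H} (hs : ∀ g, s g * s g = 1) {gl : List α} (hg : ∀ x, x ∈ gl)
    (hl : ∀ i < gl.length, ∀ j < gl.length, lab edges gl i j = lab edges gl j i)
    (hc : ∀ r ∈ coxL gl.length (lab edges gl), wd s r = 1)
    (h2 : ∀ r ∈ extra, FreeGroup.lift (fun x => s (gl.idxOf x)) r = 1) :
    ∃ φ : Cfsg.Spor.CoxPresented α edges extra →* H, ∀ x, φ (PresentedGroup.of x) = s (gl.idxOf x) := by
  have hi : ∀ x, gl.idxOf x < gl.length := fun x => List.idxOf_lt_length_of_mem (hg x)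
  have key : ∀ i j, i < j → j < gl.length → (s i * s j) ^ lab edges gl i j = 1 := fun i j h1 h2 => by
    have := hc (rp (lab edges gl i j) [i, j]) (List.mem_flatMap.2 ⟨i, List.mem_range.2 (by omega),
      List.mem_map.2 ⟨j, List.mem_filter.2 ⟨List.mem_range.2 h2, by simpa using h1⟩, rfl⟩⟩)
    simpa [wd_rp] using this
  refine exists_hom _ (fun x y => ?_) h2
  have e1 : Cfsg.Spor.coxLabel edges x y = lab edges gl (gl.idxOf x) (gl.idxOf y) := by
    simp [lab, hi x, hi y]
  rcases lt_trichotomy (gl.idxOf x) (gl.idxOf y) with h | h | h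
  · rw [e1]; exact key _ _ h (hi y)
  · rw [h, hs, one_pow]
  · rw [e1, hl _ (hi x) _ (hi y), ← inv_eq_one, ← inv_pow, mul_inv_rev,
      inv_eq_of_mul_eq_one_right (hs _), inv_eq_of_mul_eq_one_right (hs _)]
    exact key _ _ h (hi x)

/-- matrix representations -/
theorem exists_rep {α : Type} [DecidableEq α] {edges : List (α × ℕ × α)} {extra : List (FreeGroup α)}
    {n p : ℕ} {A : ℕ → Matrix (Fin n) (Fin n) (ZMod p)} (h : ∀ g, A g * A g = 1) {gl : List α}
    (hg : ∀ x, x ∈ gl) (hl : ∀ i < gl.length, ∀ j < gl.length, lab edges gl i j = lab edges gl j i)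
    {X : List (List ℕ)} (hc : ∀ r ∈ coxL gl.length (lab edges gl) ++ X, (r.map A).prod = 1)
    (h2 : ∀ (H : Type) [Group H] (s : ℕ → H), (∀ r ∈ X, wd s r = 1) →
      ∀ r ∈ extra, FreeGroup.lift (fun x => s (gl.idxOf x)) r = 1) :
    ∃ φ : Cfsg.Spor.CoxPresented α edges extra →* GL (Fin n) (ZMod p),
      ∀ x i, φ (PresentedGroup.of x) = 1 → A (gl.idxOf x) i i = 1 := by
  obtain ⟨φ, hφ⟩ := exists_hom_wd (edges := edges) (extra := extra) (un_sq h) hg hl
    (fun r hr => wd_un h (hc r (List.mem_append_left _ hr)))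
    (h2 _ _ fun r hr => wd_un h (hc r (List.mem_append_right _ hr)))
  exact ⟨φ, fun x i hx => un_ne h i (hφ x ▸ hx)⟩

theorem realizeEqns_Loc_Mat : True := by
  have := @CA.Mat.app.eq_1
  have := @CA.Mat.app.eq_def
  have := @CA.Mat.app.congr_simp
  have := @CA.Mat.chkW.eq_1
  have := @CA.Mat.chkW.eq_def
  have := @CA.Mat.chkW.congr_simp
  have := @CA.Mat.un.eq_1
  have := @CA.Mat.un.eq_def
  have := @CA.Mat.un.congr_simp
  have := @CA.Mat.chkRow.eq_1
  have := @CA.Mat.chkRow.eq_def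
  have := @CA.Mat.chkRow.congr_simp
  have := @CA.Mat.mapT.eq_1
  have := @CA.Mat.mapT.eq_def
  have := @CA.Mat.mapT.congr_simp
  have := @CA.Mat.run.eq_1
  have := @CA.Mat.run.eq_def
  have := @CA.Mat.run.congr_simp
  have := @CA.Mat.okS.eq_1
  have := @CA.Mat.okS.eq_def
  have := @CA.Mat.okS.congr_simp
  have := @CA.Mat.prd.eq_1
  have := @CA.Mat.prd.eq_2
  have := @CA.Mat.prd.eq_def
  have := @CA.Mat.prd.congr_simp
  have := @CA.Mat.pk.eq_1
  have := @CA.Mat.pk.eq_2
  have := @CA.Mat.pk.eq_def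
  have := @CA.Mat.pk.congr_simp
  have := @CA.Mat.mat.eq_1
  have := @CA.Mat.mat.eq_def
  have := @CA.Mat.mat.congr_simp
  have := @CA.Mat.dot.eq_1
  have := @CA.Mat.dot.eq_def
  have := @CA.Mat.dot.congr_simp
  trivial

end CA.Mat
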