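/-
The 13-local structure of the groups of type M(24).
-/
import Cfsg.Agent.Loc.G2
import Cfsg.Agent.Loc.B24p13
import Cfsg.Agent.Loc.Heis

set_option autoImplicit false
set_option maxRecDepth 100000

namespace CA.Loc

open CA.TC Subgroup Cfsg.Lie

variable {G : Type*} [Group G] {D : Set G} {e : ℕ → G}

theorem conj_in' [Finite G] {p : ℕ} (hp : p.Prime) {H : Subgroup G} (hH : ¬ p ^ 2 ∣ Nat.card H)
    {X Y : Subgroup G} (hXH : X ≤ H) (hYH : Y ≤ H) (hX : Nat.card X = p) (hY : Nat.card Y = p) :
    ∃ g ∈ H, X.map (MulAut.conj g).toMonoidHom = Y := by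
  obtain ⟨g, hg⟩ := conj_prime hp rfl hH (X.subgroupOf H) (Y.subgroupOf H)
    (by rw [← hX]; exact Nat.card_congr (subgroupOfEquivOfLe hXH).toEquiv)
    (by rw [← hY]; exact Nat.card_congr (subgroupOfEquivOfLe hYH).toEquiv)
  refine ⟨g, g.2, ?_⟩
  have := congrArg (map H.subtype) hg
  rw [map_subgroupOf_eq_of_le hYH, map_map] at this
  rw [← this]
  conv_lhs => rw [← map_subgroupOf_eq_of_le hXH, map_map]
  rfl

theorem norm_le_norm_cent [Finite G] (X : Subgroup G) :
    normalizer (X : Set G) ≤ normalizer ((centralizer (X : Set G) : Subgroup G) : Set G) := by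
  intro c hc
  refine mem_norm_of_conj_mem fun y hy z hz => ?_
  have hz' : c⁻¹ * z * c⁻¹⁻¹ ∈ X := (mem_normalizer_iff.1 (inv_mem hc) z).1 hz
  have := hy _ hz'
  calc z * (c * y * c⁻¹) = c * (c⁻¹ * z * c⁻¹⁻¹ * y) * c⁻¹ := by group
    _ = c * y * c⁻¹ * z := by rw [this]; group

theorem RG.cm24 (h : RG X24 D e) {p q : ℕ}
    (hc : band (blt p X24.n) (band (blt q X24.n) (cm X24 p q)) = true) : Commute (e p) (e q) := by
  simp only [band_iff, blt_iff] at hc
  exact (cm_iff h.toReal _ hc.1 _ hc.2.1).1 hc.2.2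

theorem RG.ncm24 (h : RG X24 D e) {p q : ℕ}
    (hc : band (blt p X24.n) (band (blt q X24.n) (Bool.rec true false (cm X24 p q))) = true) :
    ¬ Commute (e p) (e q) := by
  simp only [band_iff, blt_iff] at hc
  intro h1
  have := hc.2.2
  rw [(cm_iff h.toReal _ hc.1 _ hc.2.1).2 h1] at this
  cases this

theorem RG.T13 (h : RG X24 D e) :
    Subgroup.closure ({e 3, e 33657, e 158297, e 696} : Set G) = Subgroup.closure (pts e B24p13.L) := by
  apply le_antisymm
  · refine Subgroup.closure_mono ?_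
    rintro _ (rfl | rfl | rfl | rfl) <;> exact ⟨_, by decide, rfl⟩
  · have m : ∀ y ∈ ({e 3, e 33657, e 158297, e 696} : Set G),
        y ∈ Subgroup.closure ({e 3, e 33657, e 158297, e 696} : Set G) := fun y hy => subset_closure hy
    rw [closure_le]
    rintro _ ⟨q, hq, rfl⟩
    have hq' : q = 3 ∨ q = 696 ∨ q = 697 ∨ q = 33657 ∨ q = 158297 ∨ q = 196739 := by
      simpa [B24p13.L] using hq
    rcases hq' with rfl | rfl | rfl | rfl | rfl | rfl
    · exact m _ (by simp)
    · exact m _ (by simp)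
    · rw [show 697 = X24.op 3 696 by decide +kernel, ← h.op (by decide +kernel) (by decide +kernel)]
      exact mul_mem (mul_mem (m _ (by simp)) (m _ (by simp))) (inv_mem (m _ (by simp)))
    · exact m _ (by simp)
    · exact m _ (by simp)
    · rw [show 196739 = X24.op 33657 158297 by decide +kernel,
        ← h.op (by decide +kernel) (by decide +kernel)]
      exact mul_mem (mul_mem (m _ (by simp)) (m _ (by simp))) (inv_mem (m _ (by simp)))

theorem RG.K13 [Finite G] (h : RG X24 D e) :
    Nonempty (centralizer ((Subgroup.closure ({e 3, e 33657, e 158297, e 696} : Set G) : Subgroup G) :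
      Set G) ≃* chevG2.group (ZMod 3)) := by
  let g : Ex := .t [104662, 64579, 5234, 1283, 190, 614, 5, 3, 10, 2, 1, 0]
  have hg : g.ok X24 = true := by decide +kernel
  have h1 := (h.cjBy (g.val X24 e)).isoG2
  have h2 : pts (fun p => g.val X24 e * e p * (g.val X24 e)⁻¹) [0, 31672, 1, 8646] =
      {e 3, e 33657, e 158297, e 696} := by
    have e0 := Ex.cj h.toQReal hg (p := 0) (by decide +kernel)
    have e1 := Ex.cj h.toQReal hg (p := 31672) (by decide +kernel)
    have e2 := Ex.cj h.toQReal hg (p := 1) (by decide +kernel)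
    have e3 := Ex.cj h.toQReal hg (p := 8646) (by decide +kernel)
    rw [show g.act X24 false 0 = 3 by decide +kernel] at e0
    rw [show g.act X24 false 31672 = 696 by decide +kernel] at e1
    rw [show g.act X24 false 1 = 33657 by decide +kernel] at e2
    rw [show g.act X24 false 8646 = 158297 by decide +kernel] at e3
    ext y
    simp only [pts, List.mem_cons, List.not_mem_nil, or_false, exists_eq_or_imp, exists_eq_left,
      Set.mem_setOf_eq, e0, e1, e2, e3, Set.mem_insert_iff, Set.mem_singleton_iff]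
    tauto
  rwa [h2, ← centralizer_closure] at h1

theorem RG.loc13 [Finite G] (h : RG X24 D e) {T K B : Subgroup G}
    (hT : T = Subgroup.closure ({e 3, e 33657, e 158297, e 696} : Set G))
    (hK : K = centralizer (T : Set G)) (hB : B = zpowers (B24p13.x.val X24 e)) :
    B ≤ K ∧ normalizer (B : Set G) ≤ normalizer (K : Set G) ∧
      Nat.card (K ⊓ normalizer (B : Set G) : Subgroup G) = 78 ∧ K ⊓ centralizer (B : Set G) = B ∧
      (((K ⊓ normalizer (B : Set G)) ⊔ T).subgroupOf (normalizer (B : Set G))).index = 2 := by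
  classical
  have hF := frOK_spec h (by norm_num) B24p13.hf
  obtain ⟨h1, hU, h2⟩ := bOK_spec h B24p13.ps B24p13.hb
  have hfix := fix_pts h hU h2
  have hT' := hT.trans h.T13
  have hK' : K = centralizer (pts e B24p13.L) := by rw [hK, hT', centralizer_closure]
  have hcj : ∀ c ∈ normalizer (B : Set G), ∀ y ∈ pts e B24p13.L, c * y * c⁻¹ ∈ pts e B24p13.L := by
    intro c hc y hy
    rw [← hfix] at hy ⊢
    exact conj_mem_fix h.conj_mem' (hB ▸ hc) hy
  have hFK : zpowers (B24p13.x.val X24 e) ⊔ zpowers (B24p13.t.val X24 e) ≤ K ⊓ normalizer (B : Set G) :=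
    le_inf (hK' ▸ sup_le (zpowers_le.2 (fixL_cent h h2)) (zpowers_le.2 (fixL_cent h B24p13.ht)))
      (hB ▸ hF.le_norm)
  have hTN : T ≤ normalizer (B : Set G) := by
    rw [hT', hB]
    exact ((fixL_le h h2).trans (cent_zpowers _).ge).trans (cent_le_norm _)
  -- the order of the normaliser
  have lt : ∀ q ∈ B24p13.L, q < X24.n := fun q hq => (fixL_spec h h2 q hq).1
  have h3 := card_eq_orbit' (normalizer (B : Set G)) (e 3) (B24p13.L.toFinset.image e) (by
    intro c hc
    obtain ⟨q, hq, e1⟩ := hcj c hc _ ⟨3, by decide, rfl⟩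
    exact Finset.mem_image.2 ⟨q, List.mem_toFinset.2 hq, e1⟩) (by
    intro y hy
    obtain ⟨q, hq, rfl⟩ := Finset.mem_image.1 hy
    have hq' : q = 3 ∨ q = 696 ∨ q = 697 ∨ q = 33657 ∨ q = 158297 ∨ q = 196739 := by
      simpa [B24p13.L] using hq
    have l3 := lt 3 (by decide)
    rw [hB]
    rcases hq' with rfl | rfl | rfl | rfl | rfl | rfl
    · exact ⟨_, (uOK_spec h B24p13.hu0).1, (uOK_spec h B24p13.hu0).2 (_, _) List.mem_cons_self l3⟩
    · exact ⟨_, (uOK_spec h B24p13.hu1).1, (uOK_spec h B24p13.hu1).2 (_, _) List.mem_cons_self l3⟩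
    · exact ⟨_, (uOK_spec h B24p13.hu2).1, (uOK_spec h B24p13.hu2).2 (_, _) List.mem_cons_self l3⟩
    · exact ⟨_, (uOK_spec h B24p13.hu3).1, (uOK_spec h B24p13.hu3).2 (_, _) List.mem_cons_self l3⟩
    · exact ⟨_, (uOK_spec h B24p13.hu4).1, (uOK_spec h B24p13.hu4).2 (_, _) List.mem_cons_self l3⟩
    · exact ⟨_, (uOK_spec h B24p13.hu5).1, (uOK_spec h B24p13.hu5).2 (_, _) List.mem_cons_self l3⟩)
  rw [Finset.card_image_of_injOn (fun p hp q hq => h.inj p (lt p (List.mem_toFinset.1 hp)) q
    (lt q (List.mem_toFinset.1 hq))), show B24p13.L.toFinset.card = 6 by decide] at h3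
  have c1 : Commute (e 3) (e 33657) := h.cm24 (by decide +kernel)
  have c2 : Commute (e 3) (e 158297) := h.cm24 (by decide +kernel)
  have c3 : Commute (e 696) (e 33657) := h.cm24 (by decide +kernel)
  have c4 : Commute (e 696) (e 158297) := h.cm24 (by decide +kernel)
  have c5 : ¬ Commute (e 158297) (e 33657) := h.ncm24 (by decide +kernel)
  have c6 : ¬ Commute (e 696) (e 3) := h.ncm24 (by decide +kernel)
  obtain ⟨s1, s2⟩ := symOK_spec h (k := 2) le_rfl (tab := [[0, 33657, 196739], [33657, 0, 158297],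
    [196739, 158297, 0]]) (L := [33657, 158297, 196739]) (by decide +kernel)
  have s3 := s1.dvd_card (S := Subgroup.closure (pts e [33657, 158297, 196739])) (by rw [s2])
  have s4 : ∀ q, (∀ r ∈ [33657, 158297, 196739], band (blt q X24.n) (band (blt r X24.n)
      (cm X24 q r)) = true) →
      Subgroup.closure (pts e [33657, 158297, 196739]) ≤ centralizer ({e q} : Set G) := by
    intro q hq
    rw [closure_le]
    rintro _ ⟨r, hr, rfl⟩
    exact mem_cent1'.2 (h.cm24 (hq r hr))
  have s5 := card_sup_invol (M := Subgroup.closure (pts e [33657, 158297, 196739]))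
    (h.sq' 3 (lt 3 (by decide))) (fun hm => c6 (mem_cent1'.1 (s4 696 (by decide +kernel) hm)))
    (cent_le_norm _ fun y hy => (mem_cent1'.1 (s4 3 (by decide +kernel) hy)).eq.symm)
  have s6 : Subgroup.closure (pts e [33657, 158297, 196739]) ⊔ zpowers (e 3) ≤ T := by
    rw [hT']
    refine sup_le (Subgroup.closure_mono ?_) (zpowers_le.2 (subset_closure ⟨3, by decide, rfl⟩))
    rintro _ ⟨q, hq, rfl⟩
    exact ⟨q, by revert q; decide, rfl⟩
  have hxT : T ≤ centralizer ({B24p13.x.val X24 e} : Set G) := hT' ▸ fixL_le h h2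
  have htT : T ≤ centralizer ({B24p13.t.val X24 e} : Set G) := hT' ▸ fixL_le h B24p13.ht
  obtain ⟨-, -, h4, h5⟩ := hF.prod (s6.trans hxT) (s6.trans htT)
  have h6 : 936 ∣ Nat.card (normalizer (B : Set G) ⊓ centralizer ({e 3} : Set G) : Subgroup G) := by
    refine dvd_trans ?_ (card_dvd_of_le (le_inf (hB ▸ h4) (sup_le (sup_le
      (zpowers_le.2 (mem_cent1'.2 (fixL_spec h h2 3 (by decide)).2.symm))
      (zpowers_le.2 (mem_cent1'.2 (fixL_spec h B24p13.ht 3 (by decide)).2.symm)))
      (sup_le (s4 3 (by decide +kernel)) (zpowers_le_cent _)))))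
    rw [h5, s5]
    exact Nat.mul_dvd_mul_left 78 (Nat.mul_dvd_mul_right s3 2)
  have hN : Nat.card (normalizer (B : Set G)) = 5616 := by
    rw [hB] at h3 h6 ⊢
    exact hF.norm_eq h1 h.cd24 (h3 ▸ Nat.mul_dvd_mul_left 6 h6) (by decide +kernel)
  -- the subgroup of index 2
  have hS : (K ⊓ normalizer (B : Set G)) ⊔ T ≤
      normalizer ((Subgroup.closure ({e 3, e 696} : Set G) : Subgroup G) : Set G) := by
    have m3 : e 3 ∈ Subgroup.closure ({e 3, e 696} : Set G) := subset_closure (by simp)
    have m6 : e 696 ∈ Subgroup.closure ({e 3, e 696} : Set G) := subset_closure (by simp)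
    have hc : ∀ y, Commute (e 3) y → Commute (e 696) y →
        y ∈ normalizer ((Subgroup.closure ({e 3, e 696} : Set G) : Subgroup G) : Set G) := by
      intro y h7 h8
      apply cent_le_norm
      rw [centralizer_closure, cent_pair]
      exact ⟨mem_cent1'.2 h7, mem_cent1'.2 h8⟩
    refine sup_le (fun y hy => ?_) ?_
    · have := hy.1
      rw [hK'] at this
      exact hc y (this _ ⟨3, by decide, rfl⟩) (this _ ⟨696, by decide, rfl⟩)
    · rw [hT, closure_le]
      rintro _ (rfl | rfl | rfl | rfl)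
      exacts [le_normalizer m3, hc _ c1 c3, hc _ c2 c4, le_normalizer m6]
  have hle : (K ⊓ normalizer (B : Set G)) ⊔ T ≤ normalizer (B : Set G) := sup_le inf_le_right hTN
  have h7 := CA.FG.card_mul_relIndex hle
  have h8 : ((K ⊓ normalizer (B : Set G)) ⊔ T).relIndex (normalizer (B : Set G)) ≠ 1 := by
    rw [Ne, relIndex_eq_one]
    intro h9
    obtain ⟨u1, u2⟩ := uOK_spec h B24p13.hu3
    have h10 := (mem_normalizer_iff.1 (hS (h9 (hB ▸ u1))) (e 3)).1 (subset_closure (by simp))
    rw [u2 (_, _) List.mem_cons_self (lt 3 (by decide))] at h10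
    have : Subgroup.closure ({e 3, e 696} : Set G) ≤ centralizer ({e 158297} : Set G) := by
      rw [closure_le]
      rintro _ (rfl | rfl)
      exacts [mem_cent1'.2 c2.symm, mem_cent1'.2 c4.symm]
    exact c5 (mem_cent1'.1 (this h10))
  have h9 : (K ⊓ normalizer (B : Set G)) ⊓ T = ⊥ := by
    rw [eq_bot_iff]
    rintro z ⟨⟨hz, -⟩, hzT⟩
    obtain ⟨ψ⟩ := h.K13
    rw [← hT, ← hK] at ψ
    haveI := simple_G2.1
    have h10 : ψ ⟨z, hz⟩ ∈ center (chevG2.group (ZMod 3)) := by
      rw [mem_center_iff]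
      intro y
      obtain ⟨y, rfl⟩ := ψ.surjective y
      rw [← map_mul, ← map_mul]
      congr 1
      apply Subtype.ext
      have hy : (y : G) ∈ centralizer (T : Set G) := hK ▸ y.2
      exact (hy z hzT).symm
    rcases (inferInstance : (center (chevG2.group (ZMod 3))).Normal).eq_bot_or_eq_top with h11 | h11
    · rw [h11, mem_bot, map_eq_one_iff _ ψ.injective] at h10
      exact congrArg Subtype.val h10
    · exact absurd ⟨⟨fun a b => (mem_center_iff.1 (h11 ▸ mem_top b : b ∈ center _) a)⟩⟩ simple_G2.2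
  have h10 := CA.FG.card_sup_of_inf_eq_bot (Or.inl (inf_le_left.trans (hK ▸ cent_le_norm T))) h9
  have h11 := low_sound h [(3, [(3, 1), (697, 0)], [(.t [3], [0]), (.t [33657], [2]), (.t [158297], [3])]),
    (696, [(696, 0)], [(.t [33657], [1]), (.t [158297], [2])]),
    (33657, [(33657, 1), (196739, 0)], [(.t [33657], [0])]), (158297, [(158297, 0)], [])]
    [.t [3], .t [696], .t [33657], .t [158297]] (by decide +kernel) (by decide +kernel)
  have h12 : 36 ≤ Nat.card T := h11.trans (card_le_of_le (gen_le fun a ha => by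
    simp only [List.mem_cons, List.not_mem_nil, or_false] at ha
    rw [hT]
    rcases ha with rfl | rfl | rfl | rfl <;> rw [val_t1] <;> exact subset_closure (by simp)))
  have h13 := card_le_of_le hFK
  rw [hF.card] at h13
  rw [h10, hN] at h7
  have h14 : Nat.card (K ⊓ normalizer (B : Set G) : Subgroup G) = 78 ∧
      ((K ⊓ normalizer (B : Set G)) ⊔ T).relIndex (normalizer (B : Set G)) = 2 := by
    generalize Nat.card (K ⊓ normalizer (B : Set G) : Subgroup G) = a at *
    generalize Nat.card T = b at *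
    generalize ((K ⊓ normalizer (B : Set G)) ⊔ T).relIndex (normalizer (B : Set G)) = c at *
    have hc : 2 ≤ c := by
      rcases c with _ | _ | c
      · simp at h7
      · exact absurd rfl h8
      · omega
    constructor <;> nlinarith [Nat.mul_le_mul h13 h12, Nat.mul_le_mul h12 hc, Nat.mul_le_mul h13 hc]
  refine ⟨hB ▸ le_sup_left.trans (hFK.trans inf_le_left), ?_, h14.1, ?_, h14.2⟩
  · rw [hK]
    refine le_trans (fun c hc => ?_) (norm_le_norm_cent T)
    rw [hT']
    exact mem_norm_closure fun y hy => subset_closure (hcj c hc y hy)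
  · have h15 := eq_of_le_of_card_ge hFK (by rw [h14.1, hF.card])
    rw [← inf_eq_right.2 (cent_le_norm B), ← inf_assoc, ← h15, hB, hF.inf_cent]

end CA.Loc
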