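/-
The presented group Fi₂₂ is the group of type M(22).
-/
import Cfsg.Agent.Loc.F22b
import Cfsg.Agent.Loc.Cox
import Cfsg.Agent.Loc.R22
import Cfsg.Agent.Fi.Exi22
import Cfsg.Agent.Fi.Main23
import Cfsg.Prelude.Def_Spor_Fi22

set_option autoImplicit false
set_option maxRecDepth 100000

namespace CA.DC

open CA.TC CA.Loc Subgroup Cfsg.Spor

/-- the generators of the presentation -/
def gl22 : List Fi22.Gen := [.a, .b, .c, .d, .e, .f, .g, .h, .i]

/-- the corresponding generators of the model -/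
def M22 : List Ex := [.w [8], .w [9], .w [0], .w [1], .w [2], .w [3], .w [4], .w [5], .w [6]]

theorem fi22_nodes : ∀ x ∈ gl22, x ∈ coxNodes Fi22.edges := by decide

theorem fi22_R0 : ∀ r ∈ F22.R0, wd (sg Fi22.edges Fi22.extra gl22) r = 1 := by
  have h0 : F22.R0 = coxL 9 (lab Fi22.edges gl22) ++
      [rp 10 [3, 2, 1, 3, 4, 5, 3, 7, 8], rp 9 [0, 1, 2, 3, 4, 5, 7], rp 9 [1, 2, 3, 4, 5, 6, 7]] := by
    decide +kernel
  rw [h0]
  intro r hr
  rcases List.mem_append.1 hr with hr | hr
  · exact sg_cox fi22_nodes 9 r hr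
  · simp only [List.mem_cons, List.not_mem_nil, or_false] at hr
    rcases hr with rfl | rfl | rfl <;> rw [wd_rp]
    · have := extra_of (edges := Fi22.edges) (extra := Fi22.extra) List.mem_cons_self
      simp only [map_mul, map_pow, mul_assoc, wd_cons, wd_nil, mul_one] at this ⊢
      exact this
    · have := extra_of (edges := Fi22.edges) (extra := Fi22.extra)
        (List.mem_cons_of_mem _ List.mem_cons_self)
      simp only [map_mul, map_pow, mul_assoc, wd_cons, wd_nil, mul_one] at this ⊢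
      exact this
    · have := extra_of (edges := Fi22.edges) (extra := Fi22.extra)
        (List.mem_cons_of_mem _ (List.mem_cons_of_mem _ List.mem_cons_self))
      simp only [map_mul, map_pow, mul_assoc, wd_cons, wd_nil, mul_one] at this ⊢
      exact this

theorem fi22_card_le : Finite Fi22 ∧ Nat.card Fi22 ≤ 64561751654400 := by
  have hs := sg_sq (extra := Fi22.extra) fi22_nodes
  have h15 : sg Fi22.edges Fi22.extra gl22 15 = 1 := rfl
  have hR := fi22_R0
  have h5 := card_le hs h15 hR (by simp) F22.a4_hd F22.a4_all (by decide) (by decide) bot_fin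
  have h4 := card_le hs h15 hR (gs_gens [2, 3, 4, 5]) F22.d5_hd F22.d5_all (by decide) (by decide) h5
  have h3 := card_le hs h15 hR (gs_gens [2, 3, 4, 5, 7]) F22.e6_hd F22.e6_all (by decide) (by decide) h4
  have h2 := card_le hs h15 hR (gs_gens [2, 3, 4, 5, 7, 8]) F22.y2_hd F22.y2_all (by decide) (by decide) h3
  have h1 := card_le hs h15 hR (gs_gens [1, 2, 3, 4, 5, 7, 8]) F22.o7_hd F22.o7_all (by decide)
    (by decide) h2
  have h0 := card_le hs h15 hR (gs_gens [1, 2, 3, 4, 5, 6, 7, 8]) F22.f0_hd F22.f0_all (by decide)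
    (by decide) h1
  exact fin_of_top (gs_top (fun x => by cases x <;> decide) (by decide)) h0

/-- the generator of the model attached to a generator of the presentation -/
def ix22 : Fi22.Gen → ℕ
  | .a => 8 | .b => 9 | .c => 0 | .d => 1 | .e => 2 | .f => 3 | .g => 4 | .h => 5 | .i => 6

theorem gen_M22 {G : Type*} [Group G] {D : Set G} {e : ℕ → G} (h : RG X22 D e) : gen X22 e M22 = ⊤ := by
  rw [eq_top_iff, ← h.gen, closure_le]
  intro d hd
  obtain ⟨p, hp, rfl⟩ := h.surj d hd
  rw [h.eq_pw p hp]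
  refine wd_mem fun g hg => ?_
  have h1 : (allLt 10 fun g => eqE X22 (.w [g]) (mw M22 ([[2], [3], [4], [5], [6], [7], [8],
      [5, 4, 3, 2, 1, 0, 7, 3, 2, 1, 4, 3, 7, 5, 4, 3, 2, 3, 4, 5, 7, 3, 4, 1, 2, 3, 7, 0, 1, 2, 3, 4, 5],
      [0], [1]].getD g []))) = true := by decide +kernel
  have h2 := h.eqE (allLt_spec h1 g (h.ok.pw_val p hp g hg))
  have h3 : (Ex.w [g]).val X22 e = X22.gen e g := by simp [Ex.val]
  rw [← h3, h2]
  exact mw_mem_gen _ _

/-- the presented group is isomorphic to every group of type M(22) -/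
theorem pres22 {G : Type*} [Group G] {D : Set G} {e : ℕ → G} (h : RG X22 D e) :
    ∃ φ : Fi22 ≃* G, ∀ x, φ (PresentedGroup.of x) = X22.gen e (ix22 x) := by
  obtain ⟨φ, h1, h2⟩ := exists_hom_model (edges := Fi22.edges) (extra := Fi22.extra) h (gl := gl22)
    (fun x => by cases x <;> decide) (M := M22) rfl (by decide +kernel) (by decide) (by
      have e1 := h.pow_eq_one (x := mw M22 [3, 2, 1, 3, 4, 5, 3, 7, 8]) (m := 10) (by decide +kernel)
      have e2 := h.pow_eq_one (x := mw M22 [0, 1, 2, 3, 4, 5, 7]) (m := 9) (by decide +kernel)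
      have e3 := h.pow_eq_one (x := mw M22 [1, 2, 3, 4, 5, 6, 7]) (m := 9) (by decide +kernel)
      simp only [mw, List.foldr, Ex.val, wd_nil, mul_one] at e1 e2 e3
      intro r hr
      simp only [Fi22.extra, List.mem_cons, List.not_mem_nil, or_false] at hr
      rcases hr with rfl | rfl | rfl <;>
        simp only [map_mul, map_pow, FreeGroup.lift_apply_of, mul_assoc]
      exacts [e1, e2, e3])
  rw [gen_M22 h] at h1
  refine ⟨MulEquiv.ofBijective φ ⟨inj_of_card φ fi22_card_le ?_, MonoidHom.range_eq_top.1 h1⟩,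
    fun x => (h2 x).trans ?_⟩
  · rw [h1, card_top, h.cd22]
  · cases x <;> exact mul_one _

theorem RG.map_equiv {G G' : Type*} [Group G] [Group G'] {T : Tab} {D : Set G} {e : ℕ → G}
    (h : RG T D e) (φ : G ≃* G') : RG T (φ '' D) (fun p => φ (e p)) := by
  refine ⟨h.toReal.map φ.toMonoidHom φ.injective.injOn, ?_, ?_⟩
  · have := MonoidHom.map_closure φ.toMonoidHom D
    rw [h.gen, ← MonoidHom.range_eq_map, MonoidHom.range_eq_top.2 φ.surjective] at this
    exact this.symm
  · rw [eq_bot_iff]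
    intro x hx
    have : φ.symm x ∈ center G := mem_center_iff.2 fun y => φ.injective (by
      simpa using mem_center_iff.1 hx (φ y))
    rw [h.ctr, mem_bot] at this
    simpa using congrArg φ this

/-- the presented group realises the table -/
theorem fi22_rg : ∃ (D : Set Fi22) (e : ℕ → Fi22), RG X22 D e ∧
    ∀ x, PresentedGroup.of x = X22.gen e (ix22 x) := by
  obtain ⟨G, _, _, D, e, h1, h2, h3⟩ := exists22
  obtain ⟨φ, hφ⟩ := pres22 ⟨h1, h2, h3⟩
  exact ⟨_, _, RG.map_equiv ⟨h1, h2, h3⟩ φ.symm, fun x => φ.injective (by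
    rw [hφ]; simp [Tab.gen])⟩

theorem fi22_simple : IsSimpleGroup Fi22 := by
  obtain ⟨D, e, h, -⟩ := fi22_rg
  exact h.toReal.simple22 h.gen h.ctr

theorem realizeEqns_Loc_PresFi22 : True := by
  have := @CA.DC.gl22.eq_1
  have := @CA.DC.gl22.eq_def
  have := @CA.DC.gl22.congr_simp
  have := @CA.DC.ix22.eq_1
  have := @CA.DC.ix22.eq_2
  have := @CA.DC.ix22.eq_3
  have := @CA.DC.ix22.eq_4
  have := @CA.DC.ix22.eq_5
  have := @CA.DC.ix22.eq_6
  have := @CA.DC.ix22.eq_7
  have := @CA.DC.ix22.eq_8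
  have := @CA.DC.ix22.eq_9
  have := @CA.DC.ix22.eq_def
  have := @CA.DC.ix22.congr_simp
  have := @CA.DC.M22.eq_1
  have := @CA.DC.M22.eq_def
  have := @CA.DC.M22.congr_simp
  trivial

end CA.DC
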