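/-
The presented group Fi₂₄ is the group of type M(24).
-/
import Cfsg.Agent.Loc.F24b
import Cfsg.Agent.Loc.F24d
import Cfsg.Agent.Loc.F24e
import Cfsg.Agent.Loc.F24f
import Cfsg.Agent.Loc.F24g
import Cfsg.Agent.Loc.R24
import Cfsg.Agent.Fi3.C24

set_option autoImplicit false
set_option maxRecDepth 100000

namespace CA.DC

open CA.TC CA.Loc CA.Fi Subgroup Cfsg.Spor F24

variable {P G : Type*} [Group P] [Group G] {s : ℕ → P} {φ : P →* G} {D : Set G} {e : ℕ → G}

theorem cl24_card [Finite G] (h : RG X24 D e) : Nat.card (Fi3.Cl [e 0]) = 8178940946586009600 ∧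
    Nat.card (Fi3.Cl [e 1, e 0]) = 258247006617600 := by
  have c : Fi3.CL D [e 1, e 0] := Fi3.chkCL_cl h.toReal (l := [1, 0]) (by decide +kernel)
  have t := Fi3.tr24 h.toReal
  have a1 := Fi3.card_Cl (Fi3.conjInv h) t (Fi3.cl_cons'.1 c).2.2.2 (by simp)
  have a2 := Fi3.card_Cl (Fi3.conjInv h) t c (by simp)
  rw [Fi3.Cl_nil, card_top, Fi3.cl_set_nil, h.toReal.ncard, h.cd24, X24_n] at a1
  rw [show [e 0] = [] ++ [e 0] from rfl, Fi3.cl_set_cons (h.mem 0 (by decide)), Fi3.cl_set_nil,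
    (Fi3.tw24_1 h).real.ncard, X23_n, List.nil_append] at a2
  omega

theorem real_le {T : Tab} {E : Set G} {f : ℕ → G} (h : Real T E f) {H : Subgroup G}
    (hH : ∀ g < T.ng, T.gen f g ∈ H) : closure E ≤ H := fun x hx => by
  obtain ⟨w, hw, rfl⟩ := h.exists_wd hx
  exact wd_mem fun g hg => hH g (hw g hg)

/-- the setting of the lower levels -/
structure Cx (s : ℕ → P) (φ : P →* G) (e : ℕ → G) : Prop where
  sq : ∀ g, s g * s g = 1
  one : s 15 = 1
  rx : ∀ r ∈ Rx, wd s r = 1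
  im : ∀ g < 14, g ≠ 10 → φ (s g) = X24.gen e g

theorem all_app {R A : List (List ℕ)} (h1 : ∀ r ∈ R, wd s r = 1) (h2 : ∀ r ∈ A, wd s r = 1) :
    ∀ r ∈ R ++ A, wd s r = 1 := List.forall_mem_append.2 ⟨h1, h2⟩

theorem Cx.imA (c : Cx s φ e) {As : List ℕ} (h : ∀ g ∈ As, g < 14 ∧ g ≠ 10) :
    ∀ g ∈ As, φ (s g) = X24.gen e g := fun g hg => c.im g (h g hg).1 (h g hg).2

theorem Cx.le (c : Cx s φ e) {As Bs w : List ℕ} {a : ℕ} (h1 : wd s (a :: w) = 1)
    (h2 : allL w (memL · Bs) = true) (h3 : ∀ g ∈ As, g = a ∨ g ∈ Bs) : gs s As ≤ gs s Bs :=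
  gs_le fun g hg => (h3 g hg).elim (fun t => by rw [t, eq_of_rel c.sq h1]; exact wd_mem_gs h2) mem_gs

theorem Cx.hx (c : Cx s φ e) : wd s (7 :: xw) = 1 := c.rx _ (by decide +kernel)

theorem Cx.e7 (c : Cx s φ e) : Finite (gs s [0, 1, 2, 3, 5, 8, 9, 12]) ∧
    Nat.card (gs s [0, 1, 2, 3, 5, 8, 9, 12]) ≤ 2903040 := by
  have h4 := card_le c.sq c.one c.rx (by simp) a4_hd a4_all (by decide) (by decide) bot_fin
  have h3 := card_le c.sq c.one c.rx (gs_gens [0, 1, 2, 3]) d5_hd d5_all (by decide) (by decide) h4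
  have h2 := card_le c.sq c.one c.rx (gs_gens [0, 1, 2, 3, 5]) e6_hd e6_all (by decide) (by decide) h3
  exact card_le c.sq c.one c.rx (gs_gens [0, 1, 2, 3, 5, 9]) e7_hd e7_all (by decide) (by decide) h2

theorem Cx.i8 [Finite G] (c : Cx s φ e) (h : RG X24 D e) :
    Inj φ (gs s [0, 1, 2, 3, 5, 7, 8, 9, 12, 13]) := by
  have h1 := card_le c.sq c.one c.rx (gs_gens [0, 1, 2, 3, 5, 8, 9, 12]) k8_hd k8_all (by decide)
    (by decide) c.e7
  have h2 : Inj φ (gs s [0, 1, 2, 3, 5, 8, 9, 12, 13]) := inj_of h1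
    ((K8.hb ▸ low_sound h K8.ls K8.M (fun a ha => allL_spec K8.hok a ha) K8.hl).trans
      (card_le_of_le (gen_le_map (c.imA (by decide)))))
  exact fun y hy => h2 y (c.le c.hx (by decide +kernel) (by decide) hy)

theorem Cx.r1c [Finite G] (c : Cx s φ e) (h : RG X24 D e) : ∀ r ∈ R1c, wd s r = 1 := by
  have i := c.i8 h
  have r1 : ∀ r ∈ R1, wd s r = 1 :=
    all_app c.rx fun r hr => i.trv h (c.imA (by decide)) (allL_spec t1 r hr)
  have r2 : ∀ r ∈ R1b, wd s r = 1 := all_app r1 fun r hr =>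
    i.okw h c.sq c.one r1 (gs_gens _) ma_hd ma_all (c.imA (by decide)) (allL_spec ma_w r hr)
  exact all_app r2 fun r hr =>
    i.okw h c.sq c.one r2 (gs_gens _) mb_hd mb_all (c.imA (by decide)) (allL_spec mb_w r hr)

theorem Cx.f2 [Finite G] (c : Cx s φ e) (h : RG X24 D e) :
    Finite (gs s [0, 1, 2, 3, 4, 5, 6, 7, 8, 9, 12]) ∧
      Nat.card (gs s [0, 1, 2, 3, 4, 5, 6, 7, 8, 9, 12]) ≤ 258247006617600 := by
  have r := c.r1c h
  have h1 := card_le c.sq c.one r (gs_gens [0, 1, 2, 3, 5, 8, 9, 12]) l1_hd l1_all (by decide)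
    (by decide) c.e7
  have h2 := card_le c.sq c.one r (gs_gens [0, 1, 2, 3, 5, 6, 8, 9, 12]) l2_hd l2_all (by decide)
    (by decide) h1
  exact fin_le (c.le (Bs := [0, 1, 2, 3, 4, 5, 6, 8, 9, 12]) c.hx (by decide +kernel) (by decide)) h2

theorem Cx.i2 [Finite G] (c : Cx s φ e) (h : RG X24 D e) :
    Inj φ (gs s [0, 1, 2, 3, 4, 5, 6, 7, 8, 9, 12]) := by
  refine inj_of (c.f2 h) ?_
  rw [← (cl24_card h).2, (Fi3.tw24_2 h).cl]
  refine card_le_of_le (real_le (Fi3.tw24_2 h).real fun g hg => ?_)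
  have hg' : g < 10 := hg
  refine ⟨s g, mem_gs (by simp; omega), (c.im g (by omega) (by omega)).trans ?_⟩
  rw [← nest24.gen_lo e (g := g) (by show g < 12; omega), ← nest23.gen_lo _ hg]

/-- the setting of the upper levels -/
structure Cy (s : ℕ → P) (φ : P →* G) (e : ℕ → G) : Prop extends Cx s φ e where
  rm : wd s (10 :: F24.mw) = 1
  rz : wd s (rp 17 [1, 0, 9, 8, 13, 12, 1, 2, 3, 4, 11, 1, 5, 6]) = 1

theorem Cy.im' (c : Cy s φ e) (h : RG X24 D e) : ∀ g < 14, φ (s g) = X24.gen e g := by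
  intro g hg
  by_cases h1 : g = 10
  · rw [h1, eq_of_rel c.sq c.rm, map_wd (c.imA (by decide +kernel))]
    simpa [Ex.val] using h.eqE (a := .w F24.mw) (b := .w [10]) (by decide +kernel)
  · exact c.im g hg h1

theorem Cy.imA (c : Cy s φ e) (h : RG X24 D e) {As : List ℕ} (h1 : ∀ g ∈ As, g < 14) :
    ∀ g ∈ As, φ (s g) = X24.gen e g := fun g hg => c.im' h g (h1 g hg)

theorem Cy.s3 [Finite G] (c : Cy s φ e) (h : RG X24 D e) : (∀ r ∈ R2, wd s r = 1) ∧
    Finite (gs s [0, 1, 2, 3, 4, 5, 6, 7, 8, 9, 10, 11, 12]) ∧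
      Nat.card (gs s [0, 1, 2, 3, 4, 5, 6, 7, 8, 9, 10, 11, 12]) ≤ 8178940946586009600 := by
  have l := c.le (As := [0, 1, 2, 3, 4, 5, 6, 7, 8, 9, 10, 12]) (Bs := [0, 1, 2, 3, 4, 5, 6, 7, 8, 9, 12])
    c.rm (by decide +kernel) (by decide)
  have i : Inj φ (gs s [0, 1, 2, 3, 4, 5, 6, 7, 8, 9, 10, 12]) := fun y hy => c.i2 h y (l hy)
  have r : ∀ r ∈ R2, wd s r = 1 := all_app (all_app (c.r1c h) (by simpa using c.rm)) fun r hr =>
    i.trv h (c.imA h (by decide)) (allL_spec t4 r hr)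
  refine ⟨r, fin_le (c.le (a := 12) (w := rp 9 [8, 9, 0, 1, 2, 3, 5]) (Bs := List.range 12)
    (c.rx _ (by decide +kernel)) (by decide +kernel) (by decide)) ?_⟩
  exact card_le_cert ok23 k23_q k23_r k23_c c.sq (W := W23)
    (fun q hq => i.okw h c.sq c.one r (gs_gens _) p3_hd p3_all (c.imA h (by decide))
      (band_iff.1 (allL_spec p3_w q hq)).1)
    (fun q hq => word_mem c.sq c.one r (gs_gens _) p3_hd p3_all (band_iff.1 (allL_spec p3_w q hq)).2)
    (z := 10) (by decide) rfl (fun g hg => List.mem_range.1 hg) (fin_le l (c.f2 h))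

theorem Cy.card_le [Finite G] (c : Cy s φ e) (h : RG X24 D e) : Finite (gs s (List.range 14)) ∧
    Nat.card (gs s (List.range 14)) ≤ 2510411418381323442585600 := by
  obtain ⟨r2, f3⟩ := c.s3 h
  have i : Inj φ (gs s [0, 1, 2, 3, 4, 5, 6, 7, 8, 9, 10, 11, 12]) := by
    refine inj_of f3 ?_
    rw [← (cl24_card h).1, (Fi3.tw24_1 h).cl]
    refine card_le_of_le (real_le (Fi3.tw24_1 h).real fun g hg => ?_)
    have hg' : g < 12 := hg
    exact ⟨s g, mem_gs (by simp; omega), (c.im' h g (by omega)).trans (nest24.gen_lo e hg).symm⟩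
  have tr := fun w (hw : trv X24 [0, 1, 2, 3, 4, 5, 6, 7, 8, 9, 10, 11, 12] w = true) =>
    i.trv h (c.imA h (by decide)) hw
  have k1 : ∀ g ∈ [0, 1, 2, 3, 4, 5, 6, 9, 11], Commute (s 13) (s g) := fun g hg =>
    (comm_of_rel c.sq (c.rx _ ((by decide +kernel :
      ∀ g ∈ [0, 1, 2, 3, 4, 5, 6, 9, 11], [g, 13, g, 13] ∈ Rx) g hg))).symm
  have k2 : Commute (s 13) (s 10) := by
    rw [eq_of_rel c.sq c.rm]
    exact comm_wd fun g hg => k1 g ((by decide +kernel : ∀ g ∈ F24.mw, g ∈ [0, 1, 2, 3, 4, 5, 6, 9, 11]) g hg)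
  have n : ∀ g ∈ [0, 1, 2, 3, 4, 5, 6, 9, 10, 11],
      s g ∈ gs s [0, 1, 2, 3, 4, 5, 6, 7, 8, 9, 10, 11, 12] ∧ Commute (s 13) (s g) := fun g hg =>
    ⟨mem_gs (by simp at hg ⊢; omega), by
      by_cases h1 : g = 10
      · rwa [h1]
      · exact k1 g (by simp at hg ⊢; omega)⟩
  have r3 : ∀ r ∈ R3, wd s r = 1 := all_app (all_app r2 (by
    simp only [List.mem_singleton, forall_eq, wd_cons, wd_nil, mul_one]
    rw [k2.eq, ← mul_assoc (s 10), c.sq, one_mul, c.sq])) fun r hr =>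
      tr r (allL_spec t5 r hr)
  have wm := fun w (hw : okw p4 w = true) => word_mem c.sq c.one r3
    (gs_gens [0, 1, 2, 3, 4, 5, 6, 7, 8, 9, 10, 11, 12]) p4_hd p4_all hw
  have z1 := zc_spec c.sq (c.sq 13) tr n (by
    have := wm _ p4_b
    rwa [show [13, 7, 3, 6, 7, 8, 13, 12, 8, 9, 0, 1, 5, 6, 2, 3, 7, 13] =
      [13] ++ [7, 3, 6, 7, 8] ++ [13] ++ [7, 3, 2, 6, 5, 1, 0, 9, 8, 12].reverse ++ [13] from rfl,
      wd_append, wd_append, wd_append, wd_append, wd_rev c.sq, show wd s [13] = s 13 by simp] at this)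
    st u0 st_ok
  have z2 : (wd s [12, 1, 2, 3, 4, 11, 1, 5, 6, 1, 0, 9, 8] * s 13) ^ st.length = 1 := by
    have := c.rz
    rw [wd_rp, show [1, 0, 9, 8, 13, 12, 1, 2, 3, 4, 11, 1, 5, 6] =
      [1, 0, 9, 8, 13] ++ [12, 1, 2, 3, 4, 11, 1, 5, 6] from rfl, wd_append] at this
    rw [show st.length = 17 from rfl, show wd s [12, 1, 2, 3, 4, 11, 1, 5, 6, 1, 0, 9, 8] * s 13 =
      (wd s [1, 0, 9, 8, 13])⁻¹ * (wd s [1, 0, 9, 8, 13] * wd s [12, 1, 2, 3, 4, 11, 1, 5, 6]) *
        (wd s [1, 0, 9, 8, 13])⁻¹⁻¹ by simp [mul_assoc], conj_pow, this]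
    simp
  rw [z2, mul_one] at z1
  obtain ⟨y1, y2⟩ := band_iff.1 fin_ok
  have n' := fun g hg => n g (memL_spec (allL_spec y1 g hg))
  have y3 := tr _ y2
  rw [wd_append, wd_rev c.sq, mul_inv_eq_one, wd_append, wd_append, wd_append, wd_append, wd_rev c.sq,
    wd_cons, wd_cons, wd_nil, mul_one] at y3
  have y4 : s 13 * (s 12 * wd s yw * s 12) * s 13 ∈ gs s [0, 1, 2, 3, 4, 5, 6, 7, 8, 9, 10, 11, 12] := by
    have := mul_mem (mul_mem (wd_mem fun g hg => (n' g (List.mem_append_left _ hg)).1) (inv_mem z1))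
      (wd_mem fun g hg => (n' g (List.mem_append_right _ hg)).1)
    rw [y3, mul_assoc _ _ (s 13), mul_assoc _ (wd s c2),
      ← (comm_wd fun g hg => (n' g (List.mem_append_right _ hg)).2).eq, ← mul_assoc (s 13),
      ← mul_assoc (s 13), ← mul_assoc (s 13),
      (comm_wd fun g hg => (n' g (List.mem_append_left _ hg)).2).eq]
    simpa [mul_assoc, inv_eq_of_mul_eq_one_right (c.sq 13)] using this
  have y5 : Commute (s 12) (s 13 * (s 12 * wd s yw * s 12) * s 13) :=
    (mem_centralizer_singleton_iff.1 (gs_le (K := centralizer {s 12}) (fun g hg =>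
      mem_centralizer_singleton_iff.2 (comm_of_rel c.sq (tr _ ((by decide +kernel :
        ∀ g ∈ [0, 1, 2, 3, 4, 5, 6, 7, 8, 9, 10, 11, 12],
          trv X24 [0, 1, 2, 3, 4, 5, 6, 7, 8, 9, 10, 11, 12] [g, 12, g, 12] = true) g hg)))) y4)).symm
  have y6 : s 13 * s 12 * s 13 = s 12 * s 13 * s 12 := by
    have := c.rx [12, 13, 12, 13, 12, 13] (by decide +kernel)
    simp only [wd_cons, wd_nil, mul_one] at this
    calc _ = s 12 * s 13 * (s 12 * s 12) * (s 13 * s 12) * (s 13 * s 12 * s 13) := by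
          simp [c.sq, mul_assoc, ← mul_assoc (s 13) (s 13), ← mul_assoc (s 12) (s 12)]
      _ = s 12 * s 13 * s 12 * (s 12 * (s 13 * (s 12 * (s 13 * (s 12 * s 13))))) := by simp only [mul_assoc]
      _ = _ := by rw [this, mul_one]
  have i12 := inv_eq_of_mul_eq_one_right (c.sq 12)
  have i13 := inv_eq_of_mul_eq_one_right (c.sq 13)
  have sp := fun q hq => bor_iff.1 (allL_spec p4_w q hq)
  refine card_le_cert ok24 k24_q k24_r k24_c c.sq (W := W24) (fun q hq => ?_) (fun q hq => ?_)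
    (z := 12) (by decide) rfl (fun g hg => List.mem_range.1 hg) f3
  · rcases sp q hq with t | t
    · rw [eq_of_beq t, rlt, wd_append, wd_append, wd_rev c.sq, wd_cons, wd_cons, wd_nil, mul_one]
      have : Commute (s 13) (wd s yw) := by
        have t1 := (commute_cj (g := s 12 * s 13)).2 y5
        rwa [show cj (s 12 * s 13) (s 12) = s 13 by
            rw [cj, mul_inv_rev, i12, i13, ← mul_assoc, mul_assoc (s 12), mul_assoc (s 12), y6]
            simp [c.sq, mul_assoc, ← mul_assoc (s 12) (s 12)],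
          show cj (s 12 * s 13) (s 13 * (s 12 * wd s yw * s 12) * s 13) = wd s yw by
            rw [cj, mul_inv_rev, i12, i13]
            simp [c.sq, mul_assoc, ← mul_assoc (s 13) (s 13), ← mul_assoc (s 12) (s 12)]] at t1
      rw [this.eq, inv_mul_cancel_left, c.sq]
    · exact i.okw h c.sq c.one r3 (gs_gens _) p4_hd p4_all (c.imA h (by decide)) (band_iff.1 t).1
  · rcases sp q hq with t | t
    · rw [eq_of_beq t, pin, wd_append, wd_append, wd_rev c.sq, wd_rev c.sq,
        show W24.getD 13 [] = [12, 13] from rfl]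
      simpa [mul_assoc, i12, i13] using inv_mem y4
    · exact wm _ (band_iff.1 t).2

/-- the position of a letter among the generators of the presentation -/
def io24 (i : ℕ) : ℕ := [0, 1, 2, 3, 4, 5, 6, 15, 7, 8, 15, 9, 10, 11].getD i 15

/-- the letters in the presented group -/
def s24 (y : Fi24) (i : ℕ) : Fi24 :=
  if i = 7 then wd (sg Fi24.edges Fi24.extra K8.gl) (xw.map io24)
  else if i = 10 then y else sg Fi24.edges Fi24.extra K8.gl (io24 i)

theorem fi24_nodes : ∀ x ∈ K8.gl, x ∈ coxNodes Fi24.edges := by decide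

theorem wd_s24 (y : Fi24) {w : List ℕ} (h : ∀ g ∈ w, g ≠ 7 ∧ g ≠ 10) :
    wd (s24 y) w = wd (sg Fi24.edges Fi24.extra K8.gl) (w.map io24) := by
  induction w with
  | nil => rfl
  | cons g w ih =>
    rw [List.map_cons, wd_cons, wd_cons, ih fun a ha => h a (List.mem_cons_of_mem _ ha), s24,
      if_neg (h g List.mem_cons_self).1, if_neg (h g List.mem_cons_self).2]

theorem cx24 {φ : Fi24 →* G} (h : RG X24 D e) (hφ : ∀ x, φ (PresentedGroup.of x) =
    (K8.MM.getD (K8.gl.idxOf x) (.w [])).val X24 e) {y : Fi24} (hy : y * y = 1) : Cx (s24 y) φ e := by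
  have hs := sg_sq (extra := Fi24.extra) fi24_nodes
  have x2 : s24 y 7 * s24 y 7 = 1 := by
    have := wd_rev hs (xw.map io24)
    rw [show (xw.map io24).reverse = xw.map io24 by decide +kernel] at this
    exact eq_inv_iff_mul_eq_one.1 this
  have im : ∀ g < 14, g ≠ 7 → g ≠ 10 → φ (s24 y g) = X24.gen e g := by
    intro g h1 h2 h3
    interval_cases g <;> first | exact absurd rfl h2 | exact absurd rfl h3 |
      exact (hφ _).trans (mul_one _)
  refine ⟨fun g => ?_, rfl, all_app (fun r hr => ?_) ?_, fun g h1 h2 => ?_⟩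
  · by_cases h1 : g = 7
    · rwa [h1]
    · by_cases h2 : g = 10
      · rwa [h2]
      · rw [s24, if_neg h1, if_neg h2]; exact hs _
  · rw [wd_s24 y ((by decide +kernel : ∀ r ∈ R0, ∀ g ∈ r, g ≠ 7 ∧ g ≠ 10) r hr)]
    have := List.mem_map_of_mem (f := List.map io24) hr
    rw [show R0.map (List.map io24) = coxL 12 (lab Fi24.edges K8.gl) ++
      [10 :: rp 9 [7, 8, 0, 1, 2, 3, 5]] by decide +kernel] at this
    rcases List.mem_append.1 this with t | t
    · exact sg_cox fi24_nodes 12 _ t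
    · rw [List.mem_singleton.1 t, wd_cons, wd_rp]
      have := extra_of (edges := Fi24.edges) (extra := Fi24.extra) List.mem_cons_self
      simp only [map_mul, map_inv, map_pow, mul_assoc, wd_cons, wd_nil, mul_one, mul_inv_eq_one] at this ⊢
      exact (congrArg (_ * ·) this.symm).trans (hs 10)
  · simp only [List.mem_singleton, forall_eq]
    rw [wd_cons, wd_s24 y (by decide +kernel)]
    exact x2
  · by_cases h3 : g = 7
    · rw [h3, show s24 y 7 = wd (s24 y) xw from (wd_s24 y (by decide +kernel)).symm,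
        map_wd (T := X24) (e := e) fun g hg => ?_]
      · simpa [Ex.val] using h.eqE (a := .w xw) (b := .w [7]) (by decide +kernel)
      · have := (by decide +kernel : ∀ g ∈ xw, g < 14 ∧ g ≠ 7 ∧ g ≠ 10) g hg
        exact im g this.1 this.2.1 this.2.2
    · exact im g h1 h3 h2

/-- the presented group is isomorphic to every group of type M(24) -/
theorem pres24 [Finite G] (h : RG X24 D e) : Nonempty (Fi24 ≃* G) := by
  obtain ⟨φ, -, hφ⟩ := exists_hom_model (extra := Fi24.extra) h (gl := K8.gl)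
    (fun x => by cases x <;> decide) rfl K8.hc (by decide) (by
      have e1 := h.eqE K8.h1
      have e2 := h.eqE K8.h2
      simp only [Loc.mw, List.foldr, Ex.val, wd_nil, mul_one] at e1 e2
      intro r hr
      simp only [Fi24.extra, List.mem_cons, List.not_mem_nil, or_false] at hr
      rcases hr with rfl | rfl <;>
        simp only [map_mul, map_inv, map_pow, FreeGroup.lift_apply_of, mul_inv_eq_one, mul_assoc]
      exacts [e1, e2])
  have c0 := cx24 h hφ (one_mul 1)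
  have m2 := (c0.i2 h).trv h (c0.imA (by decide)) (w := F24.mw ++ F24.mw) (by decide +kernel)
  rw [wd_append] at m2
  have hm : ∀ y, wd (s24 y) F24.mw = wd (s24 1) F24.mw := fun y => by
    rw [wd_s24 y (by decide +kernel), wd_s24 1 (by decide +kernel)]
  have c : Cy (s24 (wd (s24 1) F24.mw)) φ e := ⟨cx24 h hφ m2, by rw [wd_cons, hm]; exact m2, by
    rw [wd_s24 _ (by decide +kernel), show (rp 17 [1, 0, 9, 8, 13, 12, 1, 2, 3, 4, 11, 1, 5, 6]).map io24 =
      rp 17 [1, 0, 8, 7, 11, 10, 1, 2, 3, 4, 9, 1, 5, 6] by decide +kernel, wd_rp]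
    have := extra_of (edges := Fi24.edges) (extra := Fi24.extra) (List.mem_cons_of_mem _ List.mem_cons_self)
    simp only [map_mul, map_pow, mul_assoc, wd_cons, wd_nil, mul_one] at this ⊢
    exact this⟩
  have t : gs (s24 (wd (s24 1) F24.mw)) (List.range 14) = ⊤ := by
    rw [eq_top_iff, ← gs_top (edges := Fi24.edges) (extra := Fi24.extra) (gl := K8.gl)
      (fun x => by cases x <;> decide) (As := List.range 12) fun i hi => List.mem_range.2 hi]
    refine gs_le fun g hg => ?_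
    have hg' := List.mem_range.1 hg
    interval_cases g
    exacts [mem_gs (g := 0) (by decide), mem_gs (g := 1) (by decide), mem_gs (g := 2) (by decide),
      mem_gs (g := 3) (by decide), mem_gs (g := 4) (by decide), mem_gs (g := 5) (by decide),
      mem_gs (g := 6) (by decide), mem_gs (g := 8) (by decide), mem_gs (g := 9) (by decide),
      mem_gs (g := 11) (by decide), mem_gs (g := 12) (by decide), mem_gs (g := 13) (by decide)]
  have r : φ.range = ⊤ := by
    rw [eq_top_iff, ← h.gen]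
    exact real_le h.toReal fun g hg => ⟨_, c.im' h g hg⟩
  refine ⟨MulEquiv.ofBijective φ ⟨inj_of_card φ (fin_of_top t (c.card_le h)) ?_,
    MonoidHom.range_eq_top.1 r⟩⟩
  rw [r, card_top, h.cd24]

theorem isoFi24p [Finite G] (h : RG X24 D e) : IsoFi24' (commutator G) := by
  obtain ⟨φ⟩ := pres24 h
  refine ⟨((φ.subgroupMap (commutator Fi24)).trans (MulEquiv.subgroupCongr ?_)).symm⟩
  exact map_commutator_eq _ φ.toMonoidHom |>.trans (by
    rw [MonoidHom.range_eq_top.2 φ.surjective]; rfl)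

theorem realizeEqns_Loc_PresFi24 : True := by
  have := @CA.DC.io24.eq_1
  have := @CA.DC.io24.eq_def
  have := @CA.DC.io24.congr_simp
  have := @CA.DC.s24.eq_1
  have := @CA.DC.s24.eq_def
  have := @CA.DC.s24.congr_simp
  trivial

end CA.DC
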