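/-
The Coxeter group of the graph Y₃₅₂ modulo the spider relation: the end node of the long arm is the
ninth power of a Coxeter element of type E₇.
-/
import Cfsg.Agent.Loc.PresFi24
import Cfsg.Agent.Loc.Y5a
import Cfsg.Agent.Fi.Exi24

set_option autoImplicit false
set_option maxRecDepth 100000

namespace CA.DC

open CA.TC CA.Loc CA.Fi Subgroup Cfsg.Spor F24 Y5

variable {P G : Type*} [Group P] [Group G] {s : ℕ → P} {φ : P →* G} {D : Set G} {e : ℕ → G}

theorem le_rel (hs : ∀ g, s g * s g = 1) {As Bs w : List ℕ} {a : ℕ} (h1 : wd s (a :: w) = 1)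
    (h2 : allL w (memL · Bs) = true) (h3 : ∀ g ∈ As, g = a ∨ g ∈ Bs) : gs s As ≤ gs s Bs :=
  gs_le fun g hg => (h3 g hg).elim (fun t => by rw [t, eq_of_rel hs h1]; exact wd_mem_gs h2) mem_gs

theorem im_rel (h : RG X24 D e) (hs : ∀ g, s g * s g = 1) {As w : List ℕ} {a : ℕ}
    (h1 : wd s (a :: w) = 1) (h2 : ∀ g ∈ As, φ (s g) = X24.gen e g) (h3 : ∀ g ∈ w, g ∈ As)
    (h4 : eqE X24 (.w w) (.w [a]) = true) : φ (s a) = X24.gen e a := by
  rw [eq_of_rel hs h1, map_wd fun g hg => h2 g (h3 g hg)]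
  simpa [Ex.val] using h.eqE h4

theorem all_cons {r : List ℕ} {R : List (List ℕ)} (h1 : wd s r = 1) (h2 : ∀ r ∈ R, wd s r = 1) :
    ∀ a ∈ r :: R, wd s a = 1 := List.forall_mem_cons.2 ⟨h1, h2⟩

theorem wd_sq {a b : ℕ} (hs : ∀ g, s g * s g = 1) (h : Commute (s a) (s b)) : wd s [a, b, a, b] = 1 := by
  simp only [wd_cons, wd_nil, mul_one]
  rw [h.eq, ← mul_assoc (s b), hs, one_mul, hs]

/-- the first setting -/
structure Ya (s : ℕ → P) (φ : P →* G) (e : ℕ → G) : Prop where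
  sq : ∀ g, s g * s g = 1
  one : s 15 = 1
  r0 : ∀ r ∈ Y0, wd s r = 1
  im : ∀ g ∈ [0, 1, 2, 3, 4, 5, 6, 8, 9, 11], φ (s g) = X24.gen e g

theorem Ya.f1 (c : Ya s φ e) : Finite (gs s [0, 1, 2, 3, 5, 6, 8, 9]) ∧
    Nat.card (gs s [0, 1, 2, 3, 5, 6, 8, 9]) ≤ 9170703360 := by
  have r := fun As h r hr => all_cons (wd_nil s) c.r0 r (r6 As h r hr)
  have h4 := card_le c.sq c.one (r _ (by simp)) (by simp) a4_hd' a4_all (by decide) (by decide) bot_fin
  have h3 := card_le c.sq c.one (r _ (by simp)) (gs_gens [0, 1, 2, 3]) d5_hd' d5_all (by decide)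
    (by decide) h4
  have h2 := card_le c.sq c.one (r _ (by simp)) (gs_gens [0, 1, 2, 3, 5]) e6_hd' e6_all (by decide)
    (by decide) h3
  have h1 := card_le c.sq c.one c.r0 (gs_gens [0, 1, 2, 3, 5, 9]) ye_hd ye_all (by decide) (by decide) h2
  exact card_le c.sq c.one c.r0 (gs_gens [0, 1, 2, 3, 5, 8, 9]) y1_hd y1_all (by decide) (by decide) h1

theorem Ya.i1 [Finite G] (c : Ya s φ e) (h : RG X24 D e) : Inj φ (gs s [0, 1, 2, 3, 5, 6, 8, 9]) :=
  inj_of c.f1 ((Y5.hb ▸ low_sound h Y5.ls Y5.M (fun a ha => allL_spec Y5.hok a ha) Y5.hl).trans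
    (card_le_of_le (gen_le_map fun g hg => c.im g (by simp at hg ⊢; omega))))

theorem Ya.comm (c : Ya s φ e) {a : ℕ} {w : List ℕ}
    (h : ∀ g ∈ w, [g, a, g, a] ∈ Y0 ∨ [a, g, a, g] ∈ Y0) : Commute (s a) (wd s w) :=
  comm_wd fun g hg => (h g hg).elim (fun t => (comm_of_rel c.sq (c.r0 _ t)).symm)
    fun t => comm_of_rel c.sq (c.r0 _ t)

/-- the second setting -/
structure Yb (s : ℕ → P) (φ : P →* G) (e : ℕ → G) : Prop extends Ya s φ e where
  rl : wd s (12 :: lw) = 1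
  rx : wd s (7 :: xw) = 1

theorem Yb.im' (c : Yb s φ e) (h : RG X24 D e) : ∀ g < 13, g ≠ 10 → φ (s g) = X24.gen e g := by
  intro g h1 h2
  by_cases h3 : g = 7
  · exact h3 ▸ im_rel h c.sq c.rx c.im (by decide +kernel) (by decide +kernel)
  · by_cases h4 : g = 12
    · exact h4 ▸ im_rel h c.sq c.rl c.im (by decide +kernel) (by decide +kernel)
    · exact c.im g (by simp; omega)

theorem Yb.f2 [Finite G] (c : Yb s φ e) (h : RG X24 D e) :
    Finite (gs s [0, 1, 2, 3, 4, 5, 6, 7, 8, 9, 12]) ∧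
      Nat.card (gs s [0, 1, 2, 3, 4, 5, 6, 7, 8, 9, 12]) ≤ 258247006617600 := by
  have l := le_rel c.sq (As := [0, 1, 2, 3, 5, 6, 8, 9, 12]) (Bs := [0, 1, 2, 3, 5, 6, 8, 9]) c.rl
    (by decide +kernel) (by decide)
  have i : Inj φ (gs s [0, 1, 2, 3, 5, 6, 8, 9, 12]) := fun y hy => c.i1 h y (l hy)
  have r1 : ∀ r ∈ Y1, wd s r = 1 := all_app (all_app c.r0 (by simpa using c.rl)) fun r hr =>
    i.trv h (fun g hg => c.im' h g (by simp at hg; omega) (by simp at hg; omega)) (allL_spec b1 r hr)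
  have r3 := i.okw h c.sq c.one r1 (gs_gens _) yg_hd yg_all (fun g hg => by
    have := (by decide : ∀ g ∈ yg.As, g < 13 ∧ g ≠ 10) g hg
    exact c.im' h g this.1 this.2) yg_w
  have h2 := card_le c.sq c.one (fun r hr => all_cons (wd_nil s) (all_cons r3 r1) r (r2 r hr))
    (gs_gens [0, 1, 2, 3, 5, 6, 8, 9, 12]) l2_hd' l2_all (by decide) (by decide) (fin_le l c.f1)
  exact fin_le (le_rel c.sq (Bs := [0, 1, 2, 3, 4, 5, 6, 8, 9, 12]) c.rx (by decide +kernel) (by decide)) h2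

theorem Yb.i2 [Finite G] (c : Yb s φ e) (h : RG X24 D e) :
    Inj φ (gs s [0, 1, 2, 3, 4, 5, 6, 7, 8, 9, 12]) := by
  refine inj_of (c.f2 h) ?_
  rw [← (cl24_card h).2, (Fi3.tw24_2 h).cl]
  refine card_le_of_le (real_le (Fi3.tw24_2 h).real fun g hg => ?_)
  have hg' : g < 10 := hg
  refine ⟨s g, mem_gs (by simp; omega), (c.im' h g (by omega) (by omega)).trans ?_⟩
  rw [← nest24.gen_lo e (g := g) (by show g < 12; omega), ← nest23.gen_lo _ hg]

theorem Yb.main [Finite G] (c : Yb s φ e) (h : RG X24 D e) (rm : wd s (10 :: F24.mw) = 1)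
    (hn : φ (s 13) = X24.gen e 10) {w : List ℕ}
    (hw : trv X24 [0, 1, 2, 3, 4, 5, 6, 7, 8, 9, 10, 11, 12] (10 :: w) = true) : s 13 = wd s w := by
  have im : ∀ g < 13, φ (s g) = X24.gen e g := fun g hg => by
    by_cases h1 : g = 10
    · exact h1 ▸ im_rel h c.sq rm c.im (by decide +kernel) (by decide +kernel)
    · exact c.im' h g hg h1
  have imA : ∀ {As : List ℕ}, (∀ g ∈ As, g < 13) → ∀ g ∈ As, φ (s g) = X24.gen e g :=
    fun h1 g hg => im g (h1 g hg)
  have l := le_rel c.sq (As := [0, 1, 2, 3, 4, 5, 6, 7, 8, 9, 10, 12])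
    (Bs := [0, 1, 2, 3, 4, 5, 6, 7, 8, 9, 12]) rm (by decide +kernel) (by decide)
  have i : Inj φ (gs s [0, 1, 2, 3, 4, 5, 6, 7, 8, 9, 10, 12]) := fun y hy => c.i2 h y (l hy)
  have r : ∀ r ∈ res [0, 1, 2, 3, 4, 5, 6, 7, 8, 9, 10, 11, 12] R2, wd s r = 1 := fun r hr =>
    (bor_iff.1 (allL_spec r3 r hr)).elim (fun t => all_cons (wd_sq c.sq (by
      rw [eq_of_rel c.sq c.rl]; exact c.comm (by decide +kernel))) c.r0 r (of_decide_eq_true t))
      (i.trv h (imA (by decide)))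
  have f3 := fin_le (le_rel c.sq (As := [0, 1, 2, 3, 4, 5, 6, 7, 8, 9, 10, 11, 12]) (Bs := List.range 12)
    c.rl (by decide +kernel) (by decide)) (card_le_cert ok23 k23_q k23_r k23_c c.sq (W := W23)
    (fun q hq => i.okw h c.sq c.one r (gs_gens _) p3_hd' p3_all (imA (by decide))
      (band_iff.1 (allL_spec p3_w q hq)).1)
    (fun q hq => word_mem c.sq c.one r (gs_gens _) p3_hd' p3_all (band_iff.1 (allL_spec p3_w q hq)).2)
    (z := 10) (by decide) rfl (fun g hg => List.mem_range.1 hg) (fin_le l (c.f2 h)))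
  have i3 : Inj φ (gs s [0, 1, 2, 3, 4, 5, 6, 7, 8, 9, 10, 11, 12]) := by
    refine inj_of f3 ?_
    rw [show X23.n * 258247006617600 = 8178940946586009600 from rfl, ← (cl24_card h).1, (Fi3.tw24_1 h).cl]
    refine card_le_of_le (real_le (Fi3.tw24_1 h).real fun g hg => ?_)
    have hg' : g < 12 := hg
    exact ⟨s g, mem_gs (by simp; omega), (im g (by omega)).trans (nest24.gen_lo e hg).symm⟩
  have k : ∀ {a : ℕ} {w : List ℕ}, wd s (a :: w) = 1 → (∀ g ∈ w, [g, 13, g, 13] ∈ Y0 ∨ [13, g, 13, g] ∈ Y0) →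
      wd s [a, 13, a, 13] = 1 := fun h1 h2 =>
    wd_sq c.sq (by rw [eq_of_rel c.sq h1]; exact (c.comm h2).symm)
  have r4 : ∀ r ∈ Y4, wd s r = 1 := all_app (all_app
    (fun r hr => i3.trv h (imA (by decide)) (allL_spec r4 r hr)) c.r0)
    (all_cons (k c.rx (by decide +kernel)) (all_cons (k rm (by decide +kernel))
      (all_cons (k c.rl (by decide +kernel)) (by simp))))
  have m := word_mem c.sq c.one r4 (gs_gens [0, 1, 2, 3, 4, 5, 6, 7, 8, 9, 10, 11, 12]) yn_hd yn_all yn_w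
  rw [wd_cons, wd_nil, mul_one] at m
  rw [← eq_of_rel c.sq (i3.trv h (imA (by decide)) hw), ← mul_inv_eq_one]
  exact i3 _ (mul_mem m (inv_mem (mem_gs (by decide)))) (by
    rw [map_mul, map_inv, hn, im 10 (by decide), mul_inv_cancel])

/-- the spider relator -/
def spY : FreeGroup (Fin 11) := (.of 1 * .of 0 * .of 8 * .of 1 * .of 2 * .of 3 * .of 1 * .of 5 * .of 6) ^ 10

/-- the position of a letter among the generators of the presentation -/
def ioY (i : ℕ) : ℕ := [0, 1, 2, 3, 4, 5, 6, 15, 7, 8, 15, 9, 15, 10].getD i 15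

/-- the letters in the presented group -/
def sY (y z : CoxPresented (Fin 11) ed [spY]) (i : ℕ) : CoxPresented (Fin 11) ed [spY] :=
  if i = 7 then wd (sg ed [spY] Y5.gl) (xw.map ioY)
  else if i = 10 then z else if i = 12 then y else sg ed [spY] Y5.gl (ioY i)

theorem wd_sY (y z : CoxPresented (Fin 11) ed [spY]) {w : List ℕ} (h : ∀ g ∈ w, g ≠ 7 ∧ g ≠ 10 ∧ g ≠ 12) :
    wd (sY y z) w = wd (sg ed [spY] Y5.gl) (w.map ioY) := by
  induction w with
  | nil => rfl
  | cons g w ih =>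
    rw [List.map_cons, wd_cons, wd_cons, ih fun a ha => h a (List.mem_cons_of_mem _ ha), sY,
      if_neg (h g List.mem_cons_self).1, if_neg (h g List.mem_cons_self).2.1,
      if_neg (h g List.mem_cons_self).2.2]

theorem y352 {H : Type*} [Group H] (τ : Fin 11 → H) (h1 : ∀ x y, (τ x * τ y) ^ coxLabel ed x y = 1)
    (h2 : (τ 1 * τ 0 * τ 8 * τ 1 * τ 2 * τ 3 * τ 1 * τ 5 * τ 6) ^ 10 = 1) :
    τ 10 = (τ 1 * τ 2 * τ 5 * τ 0 * τ 3 * τ 6 * τ 4) ^ 9 ∧
      τ 10 = (τ 1 * τ 2 * τ 0 * τ 5 * τ 3 * τ 8 * τ 4) ^ 9 := by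
  obtain ⟨G, _, _, D, e, a1, a2, a3⟩ := exists24
  have h : RG X24 D e := ⟨a1, a2, a3⟩
  have nd : ∀ x ∈ Y5.gl, x ∈ coxNodes ed := by decide
  have hs := sg_sq (extra := [spY]) nd
  obtain ⟨φ, -, hφ⟩ := exists_hom_model (extra := [spY]) h (gl := Y5.gl) (by decide) rfl Y5.hc
    (by decide) (by
      have e1 := h.eqE Y5.h1
      simp only [Loc.mw, List.foldr, Ex.val, wd_nil, mul_one] at e1
      simp only [spY, List.mem_singleton, forall_eq, map_mul, map_pow, FreeGroup.lift_apply_of, mul_assoc]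
      exact e1)
  have x2 : ∀ y z, sY y z 7 * sY y z 7 = 1 := fun y z => by
    have := wd_rev hs (xw.map ioY)
    rw [show (xw.map ioY).reverse = xw.map ioY by decide +kernel] at this
    exact eq_inv_iff_mul_eq_one.1 this
  have ca : ∀ y z, y * y = 1 → z * z = 1 → Ya (sY y z) φ e := fun y z hy hz => ⟨fun g => by
      by_cases t1 : g = 7
      · rw [t1]; exact x2 y z
      · by_cases t2 : g = 10
        · rwa [t2]
        · by_cases t3 : g = 12
          · rwa [t3]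
          · rw [sY, if_neg t1, if_neg t2, if_neg t3]; exact hs _, rfl, fun r hr => by
      rw [wd_sY y z ((by decide +kernel : ∀ r ∈ Y0, ∀ g ∈ r, g ≠ 7 ∧ g ≠ 10 ∧ g ≠ 12) r hr)]
      have := List.mem_map_of_mem (f := List.map ioY) hr
      rw [show Y0.map (List.map ioY) = coxL 11 (lab ed Y5.gl) ++ [rp 10 [1, 0, 8, 1, 2, 3, 1, 5, 6]] by
        decide +kernel] at this
      rcases List.mem_append.1 this with t | t
      · exact sg_cox nd 11 _ t
      · rw [List.mem_singleton.1 t, wd_rp]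
        have := extra_of (edges := ed) (extra := [spY]) List.mem_cons_self
        simp only [spY, map_mul, map_pow, mul_assoc, wd_cons, wd_nil, mul_one] at this ⊢
        exact this, fun g hg => by
      simp only [List.mem_cons, List.not_mem_nil, or_false] at hg
      rcases hg with rfl | rfl | rfl | rfl | rfl | rfl | rfl | rfl | rfl | rfl <;>
        exact (hφ _).trans (mul_one _)⟩
  have ind : ∀ y z {w : List ℕ}, (∀ g ∈ w, g ≠ 7 ∧ g ≠ 10 ∧ g ≠ 12) → wd (sY y z) w = wd (sY 1 1) w :=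
    fun y z w hw => by rw [wd_sY y z hw, wd_sY 1 1 hw]
  have c0 := ca 1 1 (one_mul 1) (one_mul 1)
  have l2 := (c0.i1 h).tm h (As := [0, 1, 2, 3, 5, 6, 8, 9]) (w := lw ++ lw)
    (fun g hg => c0.im g (by simp at hg ⊢; omega)) (by decide +kernel) (wd_mem_gs (by decide +kernel))
    (by decide +kernel)
  rw [wd_append] at l2
  have cb : ∀ z, z * z = 1 → Yb (sY (wd (sY 1 1) lw) z) φ e := fun z hz => ⟨ca _ z l2 hz,
    by rw [wd_cons, ind _ _ (by decide +kernel)]; exact l2,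
    by rw [wd_cons, wd_sY _ _ (by decide +kernel)]; exact x2 _ _⟩
  have c1 := cb 1 (one_mul 1)
  have m2 := (c1.i2 h).trv h (fun g hg => c1.im' h g (by simp at hg; omega) (by simp at hg; omega))
    (w := F24.mw ++ F24.mw) (by decide +kernel)
  rw [wd_append, ind _ _ (by decide +kernel)] at m2
  have k := fun w hw => (cb _ m2).main h (by rw [wd_cons, ind _ _ (by decide +kernel)]; exact m2)
    ((hφ 10).trans (mul_one _)) (w := w) hw
  obtain ⟨ψ, hψ⟩ := exists_hom (edges := ed) (extra := [spY]) τ h1 (by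
    simpa only [spY, List.mem_singleton, forall_eq, map_mul, map_pow, FreeGroup.lift_apply_of] using h2)
  have k1 := congrArg ψ (k (rp 9 [1, 2, 5, 0, 3, 6, 4]) (by decide +kernel))
  have k2 := congrArg ψ (k (rp 9 [1, 2, 0, 5, 3, 9, 4]) (by decide +kernel))
  simp only [wd_rp, wd_cons, wd_nil, mul_one, map_mul, map_pow] at k1 k2
  simp only [mul_assoc, ← hψ]
  exact ⟨k1, k2⟩

theorem realizeEqns_Loc_Y5 : True := by
  have := @CA.DC.sY.eq_1
  have := @CA.DC.sY.eq_def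
  have := @CA.DC.sY.congr_simp
  have := @CA.DC.spY.eq_1
  have := @CA.DC.spY.eq_def
  have := @CA.DC.spY.congr_simp
  have := @CA.DC.ioY.eq_1
  have := @CA.DC.ioY.eq_def
  have := @CA.DC.ioY.congr_simp
  trivial

end CA.DC
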